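import Cfsg.Agent.WR.Act
import Cfsg.Agent.WR.Gen

/-! Project WR: basic lemmas on the centraliser of `t`. -/

set_option autoImplicit false
set_option maxRecDepth 100000

namespace Cfsg.Agent.WR

open Subgroup Cfsg.Agent.H78 Cfsg.Agent.H14
open Cfsg.Agent.H42 (SylIn cj)

variable {G : Type*} [Group G] [Finite G] (c : Cf G)

namespace Bas

omit [Finite G] in
theorem isP {u : G} {k : ℕ} (h : u ^ 2 ^ k = 1) : IsPGroup 2 (zpowers u) := by
  obtain ⟨n, -, hn⟩ := (Nat.dvd_prime_pow Nat.prime_two).1 (orderOf_dvd_of_pow_eq_one h)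
  exact IsPGroup.of_card (n := n) (by rw [Nat.card_zpowers, hn])

theorem card_le_two {A B : Subgroup G} (h : ∀ a ∈ A, ∀ b ∈ A, a ∉ B → b ∉ B → a * b ∈ B) :
    Nat.card A ≤ 2 * Nat.card ↥(A ⊓ B) := by
  have e := H42.card_mul_relIndex (X := A ⊓ B) (Y := A) inf_le_left
  rw [inf_relIndex_left] at e
  by_cases k : A ≤ B
  · rw [relIndex_eq_one.2 k] at e; omega
  · obtain ⟨a, ha, hb⟩ := SetLike.not_le_iff_exists.1 k
    rw [relIndex_eq_two_iff_exists_notMem_and.2 ⟨a, ha, hb, fun b hb' =>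
      (em (b ∈ B)).symm.imp_left fun k => h b hb' a ha k hb⟩] at e
    omega

omit [Finite G] in
theorem pow_odd {g : G} {K : Subgroup G} (h : g * g ∈ K) {m : ℕ} (hm : Odd m) : g ^ m ∈ K ↔ g ∈ K := by
  obtain ⟨r, rfl⟩ := hm
  rw [pow_succ, pow_mul, pow_two]
  exact mul_mem_cancel_left (pow_mem h r)

omit [Finite G] in
theorem comm_of_sq {A : Subgroup G} (h : ∀ a ∈ A, a * a = 1) {a b : G} (ha : a ∈ A) (hb : b ∈ A) :
    Commute a b := by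
  rw [Commute, SemiconjBy, ← inv_eq_of_mul_eq_one_right (h _ (mul_mem ha hb)), mul_inv_rev,
    inv_eq_of_mul_eq_one_right (h a ha), inv_eq_of_mul_eq_one_right (h b hb)]

theorem a1_fpf : ∀ e : T, e ∈ E → a1 e = e → e = 1 := by decide +kernel
theorem a2_fpf : ∀ e : T, e ∈ F → a2 e = e → e = 1 := by decide +kernel
theorem pts : z ∈ W ∧ w0 ∈ W ∧ z ≠ 1 ∧ w0 ≠ 1 ∧ z ≠ w0 ∧ e2 ∈ E ∧ e2 ∉ W ∧ f1 ∈ F ∧ f1 ∉ W := by
  decide +kernel
theorem W_sq : ∀ w : T, w ∈ W → w * w = 1 := by decide +kernel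

end Bas

open Bas Act

set_option linter.unusedSectionVars false

theorem Cf.ιt (x : T) : Commute (c.ι x) c.t := c.Lt _ (c.toGF.ι_mem x)

theorem Cf.b_tinv : c.t⁻¹ = c.t := inv_eq_of_mul_eq_one_right c.tt

theorem Cf.b_tmul (x y : T) : c.t * c.ι x * (c.t * c.ι y) = c.ι (x * y) := by
  rw [mul_assoc, ← mul_assoc (c.ι x), (c.ιt x).eq, ← mul_assoc, ← mul_assoc, c.tt, one_mul, map_mul]

theorem Cf.b_memSD {D : Subgroup T} {x : G} :
    x ∈ zpowers c.t ⊔ D.map c.ι ↔ ∃ y ∈ D, x = c.ι y ∨ x = c.t * c.ι y := by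
  constructor
  · intro hx
    obtain ⟨h, hh, _, ⟨y, hy, rfl⟩, rfl⟩ := H42.exists_mul_of_mem_sup (zpowers_le.2 (mem_normalizer_iff.2
      fun n => by
        constructor
        · rintro ⟨y, hy, rfl⟩
          exact ⟨y, hy, by rw [← (c.ιt y).eq, mul_inv_cancel_right]⟩
        · rintro ⟨y, hy, e⟩
          refine ⟨y, hy, ?_⟩
          rw [eq_mul_inv_iff_mul_eq, (c.ιt y).eq] at e
          exact mul_left_cancel e)) hx
    obtain ⟨k, rfl⟩ := mem_zpowers_iff.1 hh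
    refine ⟨y, hy, ?_⟩
    have h2 : c.t ^ (2 : ℤ) = 1 := by rw [zpow_two, c.tt]
    rcases Int.even_or_odd' k with ⟨j, rfl | rfl⟩
    · left; rw [zpow_mul, h2, one_zpow, one_mul]
    · right; rw [zpow_add, zpow_mul, h2, one_zpow, one_mul, zpow_one]
  · rintro ⟨y, hy, rfl | rfl⟩
    · exact mem_sup_right ⟨y, hy, rfl⟩
    · exact mul_mem (mem_sup_left (mem_zpowers _)) (mem_sup_right ⟨y, hy, rfl⟩)

theorem Cf.mem_S {x : G} : x ∈ zpowers c.t ⊔ c.ι.range ↔ ∃ y, x = c.ι y ∨ x = c.t * c.ι y := by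
  rw [MonoidHom.range_eq_map, c.b_memSD]
  simp

theorem Cf.invT {x : T} (h2 : x * x = 1) (h1 : x ≠ 1) :
    ∃ g, Commute g c.t ∧ g * c.ι x * g⁻¹ = c.ι z := by
  by_cases h : x ∈ E
  · obtain ⟨l, hl, e⟩ := c.toGF.tr1 h h1
    exact ⟨l, c.Lt l hl, e⟩
  · obtain ⟨l, hl, e⟩ := c.toGF.clsO h2 h
    exact ⟨c.gF * l, c.gt.mul_left (c.Lt l hl), by rw [← c.gz, ← e]; group⟩

theorem Cf.not_conj (x : T) : ¬ IsConj c.t (c.ι x) := fun h => by
  obtain ⟨g, e⟩ := isConj_iff.1 h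
  obtain ⟨g', -, e'⟩ := c.invT (x := x) (c.inj (by
    rw [map_mul, map_one, ← e, show g * c.t * g⁻¹ * (g * c.t * g⁻¹) = g * (c.t * c.t) * g⁻¹ by group,
      c.tt]; group)) (fun k => c.t1 (by
    rw [k, map_one, mul_inv_eq_one] at e
    exact mul_eq_left.1 e))
  exact c.nfus (h.trans (isConj_iff.2 ⟨g', e'⟩))

theorem Cf.conj_t {x : T} (h2 : x * x = 1) : IsConj c.t (c.t * c.ι x) := by
  by_cases h1 : x = 1
  · rw [h1, map_one, mul_one]
  · obtain ⟨g, hg, e⟩ := c.invT h2 h1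
    refine c.fus.trans (IsConj.symm (isConj_iff.2 ⟨g, ?_⟩))
    rw [← e, ← mul_assoc, hg.eq]; group

theorem Cf.tH : c.t ∈ c.H := c.Hsyl.le (mem_sup_left (mem_zpowers _))

theorem Cf.b_ιH (x : T) : c.ι x ∈ c.H := c.LH (c.toGF.ι_mem x)

/-- an involution of `⟨t⟩ × T` not conjugate to `t` lies in `T` -/
theorem Cf.b_eqι {u : G} (h2 : u * u = 1) (hn : ¬ IsConj c.t u) {g : G} {y : T}
    (h : g * u * g⁻¹ = c.ι y ∨ g * u * g⁻¹ = c.t * c.ι y) : g * u * g⁻¹ = c.ι y ∧ y * y = 1 := by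
  have k : g * u * g⁻¹ * (g * u * g⁻¹) = 1 := by
    rw [show g * u * g⁻¹ * (g * u * g⁻¹) = g * (u * u) * g⁻¹ by group, h2]; group
  rcases h with h | h
  · exact ⟨h, c.inj (by rw [map_mul, map_one, ← h, k])⟩
  · rw [h, c.b_tmul] at k
    exact absurd ((c.conj_t (c.inj (k.trans (map_one _).symm))).trans
      (IsConj.symm (isConj_iff.2 ⟨g, h⟩))) hn

theorem Cf.invH {u : G} (hu : u ∈ c.H) (h2 : u * u = 1) (h1 : u ≠ 1) :
    IsConj c.t u ∨ IsConj (c.ι z) u := by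
  obtain ⟨g, -, hg⟩ := c.Hsyl.exists_conj (isP (k := 1) ((pow_two u).trans h2)) (zpowers_le.2 hu)
  obtain ⟨y, hy⟩ := c.mem_S.1 (hg u (mem_zpowers u))
  refine (em _).imp_right fun hn => ?_
  obtain ⟨e, y2⟩ := c.b_eqι h2 hn hy
  obtain ⟨g', -, e'⟩ := c.invT y2 fun k => h1 (by
    rw [k, map_one, mul_inv_eq_one] at e
    exact mul_eq_left.1 e)
  exact IsConj.symm ((isConj_iff.2 ⟨g, e⟩).trans (isConj_iff.2 ⟨g', e'⟩))

theorem Cf.H_mul {a b : G} (ha : Commute a c.t) (hb : Commute b c.t) (ha' : a ∉ c.H) (hb' : b ∉ c.H) :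
    a * b ∈ c.H := by
  rcases c.out with h | ⟨ρ, β, -, -, -, -, -, h⟩
  · exact absurd (h a ha) ha'
  · have := mul_mem ((h a ha).resolve_left ha')
      (inv_mem ((h _ hb.inv_left).resolve_left fun k => hb' (inv_mem_iff.1 k)))
    rwa [show a * ρ * (b⁻¹ * ρ)⁻¹ = a * b by group] at this

theorem Cf.H_sq {a : G} (ha : Commute a c.t) : a * a ∈ c.H :=
  (em (a ∈ c.H)).elim (fun h => mul_mem h h) fun h => c.H_mul ha ha h h

theorem Cf.H_conj {a h : G} (ha : Commute a c.t) (hh : h ∈ c.H) : a * h * a⁻¹ ∈ c.H :=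
  (em (a ∈ c.H)).elim (fun k => mul_mem (mul_mem k hh) (inv_mem k)) fun k =>
    c.H_mul (ha.mul_left (c.Ht h hh)) ha.inv_left (fun k' => k ((mul_mem_cancel_right hh).1 k'))
      fun k' => k (inv_mem_iff.1 k')

theorem Cf.b_Hconj {a h : G} (ha : Commute a c.t) (hh : a * h * a⁻¹ ∈ c.H) : h ∈ c.H := by
  simpa [mul_assoc] using c.H_conj ha.inv_left hh

theorem Cf.b_Xmul {a b : G} (ha : a ∉ c.X) (hb : b ∉ c.X) : a * b ∈ c.X := by
  have := mul_mem ((c.Xi a).resolve_left ha) (c.Xn.conj_mem _ ((c.Xi b).resolve_left hb) c.t)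
  rwa [show a * c.t * (c.t * (b * c.t) * c.t⁻¹) = a * (c.t * c.t) * b by group, c.tt, mul_one] at this

theorem Cf.sq_X (g : G) : g * g ∈ c.X :=
  (em (g ∈ c.X)).elim (fun h => mul_mem h h) fun h => c.b_Xmul h h

theorem Cf.comm_X (g h : G) : g * h * g⁻¹ * h⁻¹ ∈ c.X := by
  by_cases hh : h ∈ c.X
  · exact mul_mem (c.Xn.conj_mem _ hh g) (inv_mem hh)
  · refine c.b_Xmul (fun k => hh ?_) fun k => hh (inv_mem_iff.1 k)
    simpa [mul_assoc] using c.Xn.conj_mem _ k g⁻¹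

theorem Cf.b_cardSD (D : Subgroup T) : Nat.card ↥(zpowers c.t ⊔ D.map c.ι) = 2 * Nat.card D := by
  suffices h : (D.map c.ι).relIndex (zpowers c.t ⊔ D.map c.ι) = 2 by
    rw [← H42.card_mul_relIndex (le_sup_right (a := zpowers c.t) (b := D.map c.ι)),
      card_map_of_injective c.inj, mul_comm, h]
  refine relIndex_eq_two_iff_exists_notMem_and.2
    ⟨c.t, mem_sup_left (mem_zpowers _), fun ⟨y, _, e⟩ => c.tL (e ▸ c.toGF.ι_mem y), fun b hb => ?_⟩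
  obtain ⟨y, hy, rfl | rfl⟩ := c.b_memSD.1 hb
  · exact .inr ⟨y, hy, rfl⟩
  · exact .inl ⟨y, hy, by rw [mul_assoc, (c.ιt y).eq, ← mul_assoc, c.tt, one_mul]⟩

theorem Cf.card_S : Nat.card ↥(zpowers c.t ⊔ c.ι.range) = 256 := by
  rw [MonoidHom.range_eq_map, c.b_cardSD, card_top, card_T]

theorem Cf.maxS {Q : Subgroup G} (hQ : IsPGroup 2 Q) (hH : Q ≤ c.H) (ht : c.t ∈ Q) (hT : ∀ x, c.ι x ∈ Q)
    {q : G} (hq : q ∈ Q) : ∃ x, q = c.ι x ∨ q = c.t * c.ι x :=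
  c.mem_S.1 (c.Hsyl.eq_of_le hQ hH (sup_le (zpowers_le.2 ht) (by rintro _ ⟨x, rfl⟩; exact hT x)) ▸ hq)

theorem Cf.maxP {Q : Subgroup G} (hQ : IsPGroup 2 Q) (hH : Q ≤ c.H) (ht : c.t ∈ Q)
    (hP : ∀ x ∈ P, c.ι x ∈ Q) (hW : ∀ q ∈ Q, ∀ w ∈ W, Commute q (c.ι w)) {q : G} (hq : q ∈ Q) :
    ∃ x ∈ P, q = c.ι x ∨ q = c.t * c.ι x := by
  by_contra hn
  have le : zpowers c.t ⊔ P.map c.ι ≤ Q :=
    sup_le (zpowers_le.2 ht) (by rintro _ ⟨x, hx, rfl⟩; exact hP x hx)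
  have lt := Nat.lt_of_le_of_ne (card_le_of_le le) fun e =>
    hn (c.b_memSD.1 (eq_of_le_of_card_ge le e.ge ▸ hq))
  rw [c.b_cardSD, card_P] at lt
  obtain ⟨g, -, hg⟩ := c.Hsyl.exists_conj hQ hH
  have l2 := H42.cj_le_iff.2 hg
  obtain ⟨k, hk⟩ := card_dvd_of_le l2
  have e : cj g Q = zpowers c.t ⊔ c.ι.range := eq_of_le_of_card_ge l2 (by
    rw [c.card_S, H42.card_cj] at hk ⊢
    rcases k with _ | _ | k <;> nlinarith)
  have key : ∀ w ∈ W, w ≠ 1 → g * c.ι w * g⁻¹ = c.ι z := fun w hw h1 => by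
    obtain ⟨y, hy⟩ := c.mem_S.1 (hg _ (hP w (E_facts w ((mem_W w).1 hw).1).2.1))
    obtain ⟨e1, -⟩ := c.b_eqι (by rw [← map_mul, W_sq w hw, map_one]) (c.not_conj w) hy
    rcases (mem_center y).1 (fun x => c.inj (by
      have := (hW _ (H42.mem_cj.1 (e ▸ c.mem_S.2 ⟨x, .inl rfl⟩)) w hw).eq
      rw [map_mul, map_mul, ← e1, show c.ι x * (g * c.ι w * g⁻¹) = g * (g⁻¹ * c.ι x * g * c.ι w) * g⁻¹ by
        group, this]; group)) with rfl | rfl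
    · rw [map_one, mul_inv_eq_one, mul_eq_left, map_eq_one_iff _ c.inj] at e1
      exact absurd e1 h1
    · exact e1
  have := (key z pts.1 pts.2.2.1).trans (key w0 pts.2.1 pts.2.2.2.1).symm
  exact pts.2.2.2.2.1 (c.inj (mul_left_cancel (mul_right_cancel this)))

theorem Cf.b_supt {Q : Subgroup G} (hQ : IsPGroup 2 Q) (ht : ∀ q ∈ Q, Commute q c.t) :
    IsPGroup 2 ↥(zpowers c.t ⊔ Q) :=
  (isP (k := 1) ((pow_two _).trans c.tt)).to_sup_of_normal_left' hQ fun q hq =>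
    centralizer_le_normalizer _ (by
      rintro _ ⟨k, rfl⟩
      exact ((ht q hq).zpow_right k).symm.eq)

theorem Cf.Lodd : Odd (c.ι.range.relIndex c.Λ) := by
  obtain ⟨Q, hQ, le⟩ := H42.exists_sylIn (H := c.Λ) (T_two.of_surjective _ c.ι.rangeRestrict_surjective)
    le_sup_left
  have : Q = c.ι.range := le_antisymm (fun q hq => by
    obtain ⟨x, rfl | rfl⟩ := c.maxS (c.b_supt hQ.isP fun q hq => c.Lt q (hQ.le hq))
      (sup_le (zpowers_le.2 c.tH) (hQ.le.trans c.LH)) (mem_sup_left (mem_zpowers _))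
      (fun x => mem_sup_right (le ⟨x, rfl⟩)) (mem_sup_right hq)
    · exact ⟨x, rfl⟩
    · exact absurd ((mul_mem_cancel_right (c.toGF.ι_mem x)).1 (hQ.le hq)) c.tL) le
  exact Nat.not_even_iff_odd.1 fun h => hQ.ndvd (this ▸ h.two_dvd)

theorem Cf.b_Oodd {o : G} (ho : o ∈ c.O) : Odd (orderOf o) :=
  c.Oodd.of_dvd_nat (c.O.orderOf_dvd_natCard ho)

theorem Cf.cL {l : G} (hl : l ∈ c.Λ) (h : ∀ e ∈ E, Commute l (c.ι e)) :
    ∃ e ∈ E, ∃ o ∈ c.O, l = c.ι e * o := by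
  obtain ⟨e, he, o, ho, k | rfl⟩ := c.cE l (c.Lt l hl) h
  · exact ⟨e, he, o, ho, k⟩
  · rw [← (c.ιt e).eq, mul_assoc, mul_mem_cancel_left (c.toGF.ι_mem e)] at hl
    have := pow_mem hl (orderOf o)
    rw [(c.Ot o ho).symm.mul_pow, pow_orderOf_eq_one, mul_one,
      pow_odd (c.tt ▸ one_mem _) (c.b_Oodd ho)] at this
    exact absurd this c.tL

end Cfsg.Agent.WR
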