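import Cfsg.Agent.WR.Bas1

/-! Project WR: 2-subgroups of the centraliser of `t`. -/

set_option autoImplicit false
set_option maxRecDepth 100000
set_option linter.unusedSectionVars false

namespace Cfsg.Agent.WR

open Subgroup Cfsg.Agent.H78 Cfsg.Agent.H14
open Cfsg.Agent.H42 (SylIn cj)
open Bas Act

variable {G : Type*} [Group G] [Finite G] (c : Cf G)

theorem Cf.b_memC {g : G} : g ∈ centralizer {c.t} ↔ Commute g c.t := by
  rw [mem_centralizer_singleton_iff]; rfl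

theorem Cf.b_maxC {Q : Subgroup G} (hQ : IsPGroup 2 Q) (ht : c.t ∈ Q) (hT : ∀ x, c.ι x ∈ Q) {q : G}
    (hq : q ∈ Q) (hH : q ∈ c.H) : ∃ x, q = c.ι x ∨ q = c.t * c.ι x :=
  c.maxS (Q := Q ⊓ c.H) hQ.to_inf_left inf_le_right ⟨ht, c.tH⟩ (fun x => ⟨hT x, c.b_ιH x⟩) ⟨hq, hH⟩

theorem Cf.sylC {Q : Subgroup G} (hQ : IsPGroup 2 Q) (ht : ∀ q ∈ Q, Commute q c.t) :
    ∃ g, Commute g c.t ∧ ∀ q ∈ Q, (∃ x, g * q * g⁻¹ = c.ι x ∨ g * q * g⁻¹ = c.t * c.ι x) ∨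
      (q ∉ c.H ∧ ∃ β, Sw β ∧ ∀ y, g * q * g⁻¹ * c.ι y * (g * q * g⁻¹)⁻¹ = c.ι (β y)) := by
  rcases c.out with h | ⟨ρ, β, r1, r2, hβ, r3, r4, -⟩
  · obtain ⟨g, hg, k⟩ := c.Hsyl.exists_conj hQ fun q hq => h q (ht q hq)
    exact ⟨g, c.Ht g hg, fun q hq => .inl (c.mem_S.1 (k q hq))⟩
  have r5 : ρ ^ 2 ^ 2 = 1 := by
    rw [show 2 ^ 2 = 2 * 2 from rfl, pow_mul, pow_two, pow_two]
    rcases r2 with e | e <;> rw [e]
    exacts [mul_one _, c.tt]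
  have hR : IsPGroup 2 ↥(zpowers ρ ⊔ (zpowers c.t ⊔ c.ι.range)) :=
    (isP r5).to_sup_of_normal_right' c.Hsyl.isP (zpowers_le.2 (H42.mem_normalizer_of_conj_mem
      fun x hx => by
        obtain ⟨y, rfl | rfl⟩ := c.mem_S.1 hx
        · exact c.mem_S.2 ⟨_, .inl (r3 y)⟩
        · exact c.mem_S.2 ⟨β y, .inr (by rw [← r3, ← mul_assoc, r1.eq]; group)⟩))
  obtain ⟨R, hR, le⟩ := H42.exists_sylIn (H := centralizer {c.t}) hR
    (sup_le (zpowers_le.2 (c.b_memC.2 r1)) fun x hx => c.b_memC.2 (c.Ht x (c.Hsyl.le hx)))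
  obtain ⟨g, hg, k⟩ := hR.exists_conj hQ fun q hq => c.b_memC.2 (ht q hq)
  have mx := @c.b_maxC _ _ _ R hR.isP (le (mem_sup_right (mem_sup_left (mem_zpowers _))))
    fun x => le (mem_sup_right (mem_sup_right ⟨x, rfl⟩))
  rw [c.b_memC] at hg
  refine ⟨g, hg, fun q hq => ?_⟩
  by_cases h : q ∈ c.H
  · exact .inl (mx (k q hq) (c.H_conj hg h))
  refine .inr ⟨h, ?_⟩
  obtain ⟨x, hx⟩ := mx (mul_mem (k q hq) (le (mem_sup_left (mem_zpowers _))))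
    (c.H_mul (c.b_memC.1 (hR.le (k q hq))) r1 (fun k => h (c.b_Hconj hg k)) r4)
  refine ⟨MulAut.conj x * β⁻¹, (fx_conj x).mul_sw hβ.inv, fun y => ?_⟩
  have e1 : ρ⁻¹ * c.ι y * ρ = c.ι (β⁻¹ y) := by
    have := r3 (β⁻¹ y)
    rw [MulAut.apply_inv_self] at this
    rw [← this]; group
  have e2 : c.ι ((MulAut.conj x * β⁻¹) y) = c.ι x * (ρ⁻¹ * c.ι y * ρ) * (c.ι x)⁻¹ := by
    rw [e1, MulAut.mul_apply, MulAut.conj_apply, map_mul, map_mul, map_inv]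
  rcases hx with e | e <;> rw [← eq_mul_inv_iff_mul_eq] at e <;> rw [e]
  · rw [e2]; group
  · rw [← mul_inv_cancel_right (c.ι ((MulAut.conj x * β⁻¹) y)) c.t, (c.ιt _).eq, e2]; group

theorem Cf.exists_rho {Q : Subgroup G} (hQ : IsPGroup 2 Q) (hc : ∀ q ∈ Q, Commute q c.t) (ht : c.t ∈ Q)
    (hT : ∀ x, c.ι x ∈ Q) (hH : ¬ Q ≤ c.H) : ∃ r ∈ Q, r ∉ c.H ∧ (r * r = 1 ∨ r * r = c.t) := by
  obtain ⟨q, hq, hq'⟩ := SetLike.not_le_iff_exists.1 hH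
  rcases c.out with h | ⟨ρ, β, r1, r2, -, -, r4, -⟩
  · exact absurd (h q (hc q hq)) hq'
  have r5 : ρ ^ 2 ^ 2 = 1 := by
    rw [show 2 ^ 2 = 2 * 2 from rfl, pow_mul, pow_two, pow_two]
    rcases r2 with e | e <;> rw [e]
    exacts [mul_one _, c.tt]
  obtain ⟨R, hR, le⟩ := H42.exists_sylIn (H := centralizer {c.t}) hQ fun q hq => c.b_memC.2 (hc q hq)
  have mx : ∀ r ∈ R, r ∈ c.H → r ∈ Q := fun r hr h => by
    obtain ⟨x, rfl | rfl⟩ := c.b_maxC hR.isP (le ht) (fun x => le (hT x)) hr h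
    exacts [hT x, mul_mem ht (hT x)]
  obtain ⟨g, hg, k⟩ := hR.exists_conj (isP r5) (zpowers_le.2 (c.b_memC.2 r1))
  rw [c.b_memC] at hg
  have k1 := k ρ (mem_zpowers ρ)
  have k2 : g * ρ * g⁻¹ ∉ c.H := fun k => r4 (c.b_Hconj hg k)
  refine ⟨_, (mul_mem_cancel_right hq).1 (mx _ (mul_mem k1 (le hq))
    (c.H_mul (c.b_memC.1 (hR.le k1)) (hc q hq) k2 hq')), k2, ?_⟩
  rw [show g * ρ * g⁻¹ * (g * ρ * g⁻¹) = g * (ρ * ρ) * g⁻¹ by group]
  refine r2.imp (fun e => ?_) fun e => ?_ <;> rw [e]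
  · group
  · rw [hg.eq, mul_inv_cancel_right]

omit [Finite G] in
theorem Bas.sq_cj {A : Subgroup G} (h : ∀ a ∈ A, a * a = 1) (g : G) : ∀ a ∈ cj g A, a * a = 1 := by
  rintro _ ⟨a, ha, rfl⟩
  rw [← map_mul, h a ha, map_one]

theorem Cf.b_sq {A : Subgroup G} (h : ∀ a ∈ A, a * a = 1) : ∀ a ∈ A.comap c.ι, a * a = 1 :=
  fun a ha => c.inj (by rw [map_mul, map_one]; exact h _ ha)

/-- a subgroup of `C(t)` meeting `H` inside `⟨t⟩ × T` -/
theorem Cf.b_card {A : Subgroup G} (ht : ∀ a ∈ A, Commute a c.t)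
    (h : ∀ a ∈ A, a ∈ c.H → ∃ x, a = c.ι x ∨ a = c.t * c.ι x) :
    Nat.card A ≤ 4 * Nat.card (A.comap c.ι) := by
  have h1 := card_le_two (A := A) (B := c.H) fun a ha b hb => c.H_mul (ht a ha) (ht b hb)
  have h2 := card_le_two (A := A ⊓ c.H) (B := c.ι.range) fun a ha b hb ka kb => by
    obtain ⟨x, rfl | rfl⟩ := h a ha.1 ha.2
    · exact absurd ⟨x, rfl⟩ ka
    obtain ⟨y, rfl | rfl⟩ := h b hb.1 hb.2
    · exact absurd ⟨y, rfl⟩ kb
    exact ⟨_, (c.b_tmul x y).symm⟩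
  have h3 : Nat.card ↥(A ⊓ c.H ⊓ c.ι.range) ≤ Nat.card ((A.comap c.ι).map c.ι) :=
    card_le_of_le (by rintro _ ⟨ha, x, rfl⟩; exact ⟨x, ha.1, rfl⟩)
  rw [card_map_of_injective c.inj] at h3
  omega

theorem Cf.b_card' {A : Subgroup G} (ht : ∀ a ∈ A, Commute a c.t) {g : G} (hg : Commute g c.t)
    {p : G → Prop} (k : ∀ q ∈ A, (∃ x, g * q * g⁻¹ = c.ι x ∨ g * q * g⁻¹ = c.t * c.ι x) ∨
      (q ∉ c.H ∧ p q)) : Nat.card A ≤ 4 * Nat.card ((cj g A).comap c.ι) := by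
  rw [← H42.card_cj g A]
  refine c.b_card ?_ ?_
  · rintro _ ⟨a, ha, rfl⟩
    exact (hg.mul_left (ht a ha)).mul_left hg.inv_left
  · rintro _ ⟨a, ha, rfl⟩ hH
    exact (k a ha).resolve_right fun k => k.1 (c.b_Hconj hg hH)

omit [Finite G] in
theorem Bas.isP_sq {A : Subgroup G} (h : ∀ a ∈ A, a * a = 1) : IsPGroup 2 A :=
  fun a => ⟨1, Subtype.ext ((pow_two (a : G)).trans (h a a.2))⟩

theorem Cf.elem_le {A : Subgroup G} (h : ∀ a ∈ A, a * a = 1) (ht : ∀ a ∈ A, Commute a c.t) :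
    Nat.card A ≤ 64 := by
  obtain ⟨g, hg, k⟩ := c.sylC (isP_sq h) ht
  have h1 := c.b_card' ht hg k
  have h2 := WR.elem_le (c.b_sq (sq_cj h g))
  omega

theorem Cf.elem32 {A : Subgroup G} (h : ∀ a ∈ A, a * a = 1) (ht : c.t ∈ A) (hc : 32 ≤ Nat.card A) :
    ∃ g, Commute g c.t ∧ (cj g A = zpowers c.t ⊔ E.map c.ι ∨ cj g A = zpowers c.t ⊔ F.map c.ι) := by
  have ht' : ∀ a ∈ A, Commute a c.t := fun a ha => comm_of_sq h ha ht
  obtain ⟨g, hg, k⟩ := c.sylC (isP_sq h) ht'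
  have h1 := c.b_card' ht' hg k
  have h2 := c.b_sq (sq_cj h g)
  have tA : c.t ∈ cj g A := by
    have := H42.conj_mem_cj (g := g) ht
    rwa [hg.eq, mul_inv_cancel_right] at this
  have e : cj g A = zpowers c.t ⊔ ((cj g A).comap c.ι).map c.ι := by
    refine le_antisymm ?_ (sup_le (zpowers_le.2 tA) (map_comap_le _ _))
    rintro _ ⟨a, ha, rfl⟩
    rcases k a ha with ⟨x, e | e⟩ | ⟨-, β, hβ, e⟩
    · exact c.b_memSD.2 ⟨x, by rw [mem_comap, ← e]; exact H42.conj_mem_cj ha, .inl e⟩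
    · exact c.b_memSD.2 ⟨x, (mul_mem_cancel_left tA).1 (e ▸ H42.conj_mem_cj ha), .inr e⟩
    · have := sw_elem hβ h2 fun y hy => c.inj (by
        rw [← e, (comm_of_sq (sq_cj h g) (H42.conj_mem_cj ha) hy).eq, mul_inv_cancel_right])
      omega
  have h3 := c.b_cardSD ((cj g A).comap c.ι)
  rw [← e, H42.card_cj] at h3
  refine ⟨g, hg, (elem_eq h2 (by omega)).imp (fun k => ?_) fun k => ?_⟩ <;> rw [e, k]

/-- the conjugate of `E` inside `⟨t⟩ × T` -/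
theorem Cf.b_conjE {g : G} (h : ∀ e ∈ E, ∃ x, g * c.ι e * g⁻¹ = c.ι x ∨ g * c.ι e * g⁻¹ = c.t * c.ι x) :
    ∃ D, (D = E ∨ D = F) ∧ D.map c.ι = cj g (E.map c.ι) := by
  have e : ((cj g (E.map c.ι)).comap c.ι).map c.ι = cj g (E.map c.ι) := map_comap_eq_self (by
    rintro _ ⟨_, ⟨e, he, rfl⟩, rfl⟩
    obtain ⟨x, hx⟩ := h e he
    exact ⟨x, (c.b_eqι (by rw [← map_mul, (E_facts e he).1, map_one]) (c.not_conj e) hx).1.symm⟩)
  refine ⟨_, elem_eq (c.b_sq (sq_cj ?_ g)) ?_, e⟩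
  · rintro _ ⟨e, he, rfl⟩
    rw [← map_mul, (E_facts e he).1, map_one]
  · rw [← card_map_of_injective c.inj, e, H42.card_cj, card_map_of_injective c.inj, card_E]

theorem Cf.b_nm {g : G} (h : Nm c.ι E g) : g ∈ normalizer (E.map c.ι : Set G) :=
  H42.mem_normalizer_of_conj_mem (by
    rintro _ ⟨e, he, rfl⟩
    obtain ⟨e', he', k⟩ := h e he
    exact ⟨e', he', k.symm⟩)

/-- the 2-part of an element normalising `E` -/
theorem Cf.b_part {g : G} (hg : Commute g c.t) (h : Nm c.ι E g) : ∃ m, Odd m ∧ ∃ y, Commute y c.t ∧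
    (∃ D, (D = E ∨ D = F) ∧ D.map c.ι = cj y (E.map c.ι)) ∧
    ((∃ x, y * g ^ m * y⁻¹ = c.ι x ∨ y * g ^ m * y⁻¹ = c.t * c.ι x) ∨ (g ^ m ∉ c.H ∧
      ∃ β, Sw β ∧ ∀ x, y * g ^ m * y⁻¹ * c.ι x * (y * g ^ m * y⁻¹)⁻¹ = c.ι (β x))) := by
  obtain ⟨_, -, k, -, -, hk, -, -, m, hm, rfl⟩ := exists_parts g
  obtain ⟨y, hy, l⟩ := c.sylC (Q := zpowers (g ^ m) ⊔ E.map c.ι) ((isP hk).to_sup_of_normal_right'
    ((T_two.to_subgroup E).map _) (zpowers_le.2 (pow_mem (c.b_nm h) m))) fun q hq =>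
      c.b_memC.1 (sup_le (zpowers_le.2 (c.b_memC.2 (hg.pow_left m)))
        (by rintro _ ⟨e, -, rfl⟩; exact c.b_memC.2 (c.ιt e)) hq)
  exact ⟨m, hm, y, hy, c.b_conjE fun e he => (l _ (mem_sup_right ⟨e, he, rfl⟩)).resolve_right
    fun k => k.1 (c.b_ιH e), l _ (mem_sup_left (mem_zpowers _))⟩

theorem Cf.normE {g : G} (hg : Commute g c.t) (h : Nm c.ι E g) : g ∈ c.H := by
  obtain ⟨m, hm, y, hy, ⟨D, hD, e⟩, ⟨x, hx⟩ | ⟨-, β, hβ, k⟩⟩ := c.b_part hg h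
  · exact (pow_odd (c.H_sq hg) hm).1 (c.b_Hconj hy (c.Hsyl.le (c.mem_S.2 ⟨x, hx⟩)))
  have n : y * g ^ m * y⁻¹ ∈ normalizer (D.map c.ι : Set G) := by
    rw [e, ← H42.cj_normalizer]
    exact H42.conj_mem_cj (pow_mem (c.b_nm h) m)
  have k' : ∀ x ∈ D, β x ∈ D := fun x hx => by
    obtain ⟨x', hx', l⟩ := H42.conj_mem_of_mem_normalizer n (mem_map_of_mem c.ι hx)
    exact c.inj (l.trans (k x)) ▸ hx'
  obtain ⟨-, -, -, -, -, p1, p2, p3, p4⟩ := pts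
  rcases hD with rfl | rfl
  · exact absurd ((mem_W _).2 ⟨k' _ p1, hβ.1 _ p1⟩) (aut_not_W β p2)
  · exact absurd ((mem_W _).2 ⟨hβ.2 _ p3, k' _ p3⟩) (aut_not_W β p4)

theorem Cf.noTv {g : G} (hg : Commute g c.t) (h : Nm c.ι E g) {U : Subgroup T} (hU : U ≤ E)
    (h8 : 8 ≤ Nat.card U) (hc : ∀ u ∈ U, Commute g (c.ι u)) : ∀ e ∈ E, Commute g (c.ι e) := by
  have i2 : ∀ e ∈ E, ∀ e' ∈ E, e ∉ U → e' ∉ U → e * e' ∈ U := fun e he e' he' k k' => by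
    have h1 := H42.card_mul_relIndex hU
    have h2 : U.relIndex E ≠ 1 := fun l => k (relIndex_eq_one.1 l he)
    have h3 : U.relIndex E = 2 := by
      rw [card_E] at h1
      rcases hr : U.relIndex E with _ | _ | _ | r <;> rw [hr] at h1 h2 <;> first | rfl | nlinarith | omega
    exact (mul_mem_iff_of_index_two (H := U.subgroupOf E) h3 (a := ⟨e, he⟩) (b := ⟨e', he'⟩)).2
      (iff_of_false k k')
  have sq : g * g ∈ centralizer (E.map c.ι : Set G) := by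
    rintro _ ⟨e, he, rfl⟩
    by_cases k : e ∈ U
    · exact ((hc e k).mul_left (hc e k)).symm.eq
    obtain ⟨e', he', l⟩ := h e he
    have k' : e' ∉ U := fun k' => k (by
      rw [mul_inv_eq_iff_eq_mul, ← (hc e' k').eq] at l
      exact c.inj (mul_left_cancel l) ▸ k')
    have l' := (hc _ (i2 e he e' he' k k')).eq
    have l2 : g * c.ι e' * g⁻¹ = c.ι e := by
      have : c.ι e' * (g * c.ι e' * g⁻¹) = c.ι e' * c.ι e := by
        rw [← map_mul, ← (E_facts e he).2.2.2 e' he', eq_mul_inv_iff_mul_eq.2 l'.symm, map_mul, ← l]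
        group
      exact mul_left_cancel this
    rw [← mul_inv_eq_iff_eq_mul.1 (show g * g * c.ι e * (g * g)⁻¹ = c.ι e by
      rw [show g * g * c.ι e * (g * g)⁻¹ = g * (g * c.ι e * g⁻¹) * g⁻¹ by group, l, l2])]
  obtain ⟨m, hm, y, hy, ⟨D, hD, e⟩, ⟨x, hx⟩ | ⟨k, -⟩⟩ := c.b_part hg h
  swap
  · exact absurd (pow_mem (c.normE hg h) m) k
  have key : ∀ u, Commute (y * g ^ m * y⁻¹) (c.ι u) ↔ x * u = u * x := fun u => by
    rw [← c.inj.eq_iff, map_mul, map_mul]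
    rcases hx with l | l <;> rw [l]
    · rfl
    · exact ⟨fun k => by simpa [← mul_assoc, c.tt] using ((c.ιt u).symm.mul_left k).eq,
        fun k => (c.ιt u).symm.mul_left k⟩
  have le : cj y (U.map c.ι) ≤ D.map c.ι := e ▸ H42.cj_mono y (map_mono hU)
  have xD : x ∈ D := by
    by_contra xD
    have := cent_out hD (U := (cj y (U.map c.ι)).comap c.ι)
      ((comap_mono le).trans (comap_map_eq_self_of_injective c.inj D).le) xD fun u hu => (key u).1 (by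
        obtain ⟨_, ⟨v, hv, rfl⟩, l⟩ := hu
        rw [← l]
        exact ((hc v hv).pow_left m).map (MulAut.conj y))
    rw [← card_map_of_injective c.inj, map_comap_eq_self (le.trans (map_le_range _ _)), H42.card_cj,
      card_map_of_injective c.inj] at this
    omega
  have fin : g ^ m ∈ centralizer (E.map c.ι : Set G) := fun v hv => by
    obtain ⟨u, hu, l⟩ : y * v * y⁻¹ ∈ D.map c.ι := e ▸ H42.conj_mem_cj hv
    have := ((key u).2 (by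
      rcases hD with rfl | rfl
      exacts [(E_facts x xD).2.2.2 u hu, (F_facts x xD).2.2.2 u hu])).eq
    rw [l] at this
    have k : y * (v * g ^ m) * y⁻¹ = y * (g ^ m * v) * y⁻¹ := by
      rw [show y * (g ^ m * v) * y⁻¹ = y * g ^ m * y⁻¹ * (y * v * y⁻¹) by group, this]; group
    exact mul_left_cancel (mul_right_cancel k)
  exact fun e he => Commute.symm ((pow_odd sq hm).1 fin _ ⟨e, he, rfl⟩)

theorem Cf.ddE : Dd c E where
  or := .inl rfl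
  cD := c.cE
  tr e he h1 := by
    obtain ⟨l, hl, k⟩ := c.toGF.tr1 he h1
    exact ⟨l, c.Lt l hl, c.toGF.nE hl, k⟩
  fpf := ⟨c.h1, c.toGF.h1_mem, c.toGF.nE c.toGF.h1_mem, fun e he h => a1_fpf e he (c.inj (by
    rw [← c.c1 e (EP e he), h.eq, mul_inv_cancel_right]))⟩

theorem Cf.ddF : Dd c F where
  or := .inr rfl
  cD := c.cF
  tr e he h1 := by
    by_cases h : e ∈ E
    · obtain ⟨l, hl, n, k⟩ := c.toGF.clsW ((mem_W e).2 ⟨h, he⟩) h1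
      exact ⟨l, c.Lt l hl, n, k⟩
    · obtain ⟨l, hl, n, k⟩ := c.toGF.clsF he h
      exact ⟨c.gF * l, c.gt.mul_left (c.Lt l hl), Nm.mul c.toGF c.gN n, by rw [← c.gz, ← k]; group⟩
  fpf := ⟨c.h2, c.toGF.h2_mem, nm_h2 c.toGF, fun e he h => a2_fpf e he (c.inj (by
    rw [← c.c2 e (FP e he), h.eq, mul_inv_cancel_right]))⟩

end Cfsg.Agent.WR
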