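import Cfsg.Agent.WR.Util
import Cfsg.Agent.H46.Generation
import Cfsg.Agent.H18.Four

/-! Project WR: the centraliser of `E*` in `N₀`. -/

set_option autoImplicit false
set_option linter.unusedSectionVars false
set_option maxRecDepth 100000

namespace Cfsg.Agent.WR

open Subgroup Cfsg.Agent.H78 Cfsg.Agent.H14
open Cfsg.Agent.H42 (SylIn cj mem_normalizer_of_conj_mem conj_mem_of_mem_normalizer)

variable {G : Type*} [Group G] [Finite G] {c : Cf G} {Es Fs : Subgroup G}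

namespace Cen

theorem le1 : c.Λ ≤ N0 c Es Fs := le_sup_left.trans le_sup_left
theorem le2 : Es ≤ N0 c Es Fs := le_sup_right.trans le_sup_left
theorem le3 : Fs ≤ N0 c Es Fs := le_sup_right

theorem le_of {K : Subgroup G} (h1 : c.Λ ≤ K) (h2 : Es ≤ K) (h3 : Fs ≤ K) : N0 c Es Fs ≤ K :=
  sup_le (sup_le h1 h2) h3

theorem ti : c.t⁻¹ = c.t := inv_eq_of_mul_eq_one_right c.tt

/-- a subgroup of odd order containing the elements of odd order -/
theorem exists_odd {C A : Subgroup G} (hA : A ≤ C) (sq : ∀ a ∈ A, a * a = 1)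
    (hc : ∀ x ∈ C, ∀ a ∈ A, Commute x a) (ho : ¬ 2 ∣ A.relIndex C) :
    ∃ K : Subgroup G, Odd (Nat.card K) ∧ ∀ x, x ∈ K ↔ x ∈ C ∧ Odd (orderOf x) := by
  haveI : (A.subgroupOf C).Normal := ⟨fun a ha x => by
    rw [mem_subgroupOf] at ha ⊢
    simpa [(hc x x.2 a ha).eq] using ha⟩
  have p2 : IsPGroup 2 (A.subgroupOf C) := fun a => ⟨1, Subtype.ext (Subtype.ext (by
    simpa [pow_two] using sq _ a.2))⟩
  obtain ⟨n, hn⟩ := IsPGroup.iff_card.1 p2
  have o1 : Odd (A.subgroupOf C).index := Nat.odd_iff.2 (Nat.two_dvd_ne_zero.1 ho)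
  obtain ⟨K, hK⟩ := exists_right_complement'_of_coprime (N := A.subgroupOf C)
    (hn ▸ (Nat.coprime_two_left.2 o1).pow_left n)
  have o2 : Odd (Nat.card (K.map C.subtype)) := by
    rwa [card_map_of_injective C.subtype_injective, ← hK.symm.index_eq_card]
  have o3 : ∀ x ∈ K.map C.subtype, Odd (orderOf x) := fun x hx =>
    o2.of_dvd_nat (orderOf_dvd_natCard _ hx)
  refine ⟨_, o2, fun x => ⟨fun hx => ⟨map_subtype_le _ hx, o3 x hx⟩, fun ⟨hx, ox⟩ => ?_⟩⟩
  obtain ⟨⟨a, k⟩, e⟩ := hK.2 (⟨x, hx⟩ : C)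
  have e' : (a : G) * k = x := congrArg Subtype.val e
  refine mem_of_sq_mem ox ?_
  have hk : ((k : C) : G) ∈ K.map C.subtype := mem_map_of_mem _ k.2
  have : x * x = k * k := by
    have c1 : Commute ((a : C) : G) k := (hc _ (k : C).2 _ a.2).symm
    have c2 : ((a : C) : G) * a = 1 := sq _ a.2
    rw [← e', ← pow_two, c1.mul_pow, pow_two, c2, one_mul, pow_two]
  exact this ▸ mul_mem hk hk

end Cen

open Cen

theorem Sx.normE (h : Sx c Es Fs) {n : G} (hn : n ∈ N0 c Es Fs) : ∀ a ∈ Es, n * a * n⁻¹ ∈ Es :=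
  fun _ ha => conj_mem_of_mem_normalizer (le_of (K := normalizer (Es : Set G))
    (fun l hl => mem_normalizer_of_conj_mem (h.e.norm l ⟨1, one_mem _, φ_one (c.Lt l hl)⟩ (c.toGF.nE hl)))
    le_normalizer (fun b hb => mem_normalizer_of_conj_mem fun a ha => by
      simpa only [mul_assoc, mul_inv_cancel_left, inv_inv] using
        mul_mem ha (h.comm _ (inv_mem ha) b hb).1) hn) ha

theorem Sx.t_norm (h : Sx c Es Fs) {n : G} (hn : n ∈ N0 c Es Fs) : c.t * n * c.t ∈ N0 c Es Fs := by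
  have k : ∀ {D : Subgroup T} {R : Subgroup G}, S1 c D R → R ≤ N0 c Es Fs →
      R ≤ (N0 c Es Fs).comap (MulAut.conj c.t).toMonoidHom := fun hR le q hq => by
    obtain ⟨e, he, k⟩ := hR.φ q hq
    show c.t * q * c.t⁻¹ ∈ N0 c Es Fs
    rw [ti, tqt k]
    exact le (mul_mem (hR.DR e he) hq)
  have : c.t * n * c.t⁻¹ ∈ N0 c Es Fs := le_of (fun l hl => show c.t * l * c.t⁻¹ ∈ N0 c Es Fs by
    rw [← (c.Lt l hl).eq, mul_inv_cancel_right]; exact le1 hl) (k h.e le2) (k h.f le3) hn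
  rwa [ti] at this

theorem Sx.cO (h : Sx c Es Fs) {n : G} (hn : n ∈ N0 c Es Fs) : ∀ o ∈ c.O, Commute n o :=
  fun o ho => (mem_centralizer_iff.1 (le_of (K := centralizer (c.O : Set G))
    (fun l hl o ho => (c.LO l hl o ho).eq.symm) (fun l hl o ho => (h.e.cO l hl o ho).eq.symm)
    (fun l hl o ho => (h.f.cO l hl o ho).eq.symm) hn) o ho).symm

namespace Cen

/-- the centraliser of `E*` in `N₀` -/
abbrev C0 (c : Cf G) (Es Fs : Subgroup G) : Subgroup G := N0 c Es Fs ⊓ centralizer (Es : Set G)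

theorem oddO {o : G} (ho : o ∈ c.O) : Odd (orderOf o) := c.Oodd.of_dvd_nat (orderOf_dvd_natCard _ ho)

variable (h : Sx c Es Fs)
include h

theorem t_Es : c.t ∈ normalizer (Es : Set G) := mem_normalizer_of_conj_mem fun q hq => by
  obtain ⟨e, he, k⟩ := h.e.φ q hq
  rw [ti, tqt k]
  exact mul_mem (h.e.DR e he) hq

theorem t_C0 : c.t ∈ normalizer (C0 c Es Fs : Set G) := mem_normalizer_of_conj_mem fun q hq =>
  mem_inf.2 ⟨by rw [ti]; exact h.t_norm hq.1,
    conj_mem_of_mem_normalizer (H42.normalizer_le_normalizer_centralizer _ (t_Es h)) hq.2⟩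

theorem N_C0 : N0 c Es Fs ≤ normalizer (C0 c Es Fs : Set G) := fun n hn =>
  mem_normalizer_of_conj_mem fun q hq => mem_inf.2 ⟨mul_mem (mul_mem hn hq.1) (inv_mem hn),
    conj_mem_of_mem_normalizer (H42.normalizer_le_normalizer_centralizer _
      (mem_normalizer_of_conj_mem (h.normE hn))) hq.2⟩

theorem Es_le : Es ≤ C0 c Es Fs := le_inf le2 fun a ha b hb => (h.e.comm b hb a ha).eq

theorem t_not : c.t ∉ C0 c Es Fs := fun ht => by
  obtain ⟨q, hq, k⟩ := h.e.onto z Act.zE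
  rw [ht.2 q hq, mul_inv_cancel_right, left_eq_mul, ← map_one c.ι] at k
  exact absurd (c.inj k) (by decide +kernel)

omit h in
theorem mem_sup_t {K : Subgroup G} (hK : c.t ∈ normalizer (K : Set G)) {y : G}
    (hy : y ∈ zpowers c.t ⊔ K) : y ∈ K ∨ c.t * y ∈ K := by
  obtain ⟨_, ⟨k, rfl⟩, x, hx, rfl⟩ := H42.exists_mul_of_mem_sup (zpowers_le.2 hK) hy
  have tt : c.t ^ (2 : ℤ) = 1 := by rw [zpow_two, c.tt]
  rcases Int.even_or_odd' k with ⟨j, rfl | rfl⟩
  · exact .inl (by simpa [zpow_mul, tt] using hx)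
  · exact .inr (by simpa [zpow_mul, zpow_add, tt, ← mul_assoc, c.tt] using hx)

theorem syl : SylIn 2 Es (C0 c Es Fs) := by
  have p1 : IsPGroup 2 Es := fun a => ⟨1, Subtype.ext (by simpa [pow_two] using h.e.sq _ a.2)⟩
  have p2 : IsPGroup 2 (zpowers c.t) := IsPGroup.of_card (n := 1) (by
    rw [Nat.card_zpowers, orderOf_eq_prime (p := 2) (by rw [pow_two, c.tt]) c.t1, pow_one])
  have p3 : IsPGroup 2 ↥(zpowers c.t ⊔ Es) := p2.to_sup_of_normal_right' p1 (zpowers_le.2 (t_Es h))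
  obtain ⟨Q, hQ, le⟩ := H42.exists_sylIn p3 (sup_le_sup_left (Es_le h) _)
  have tR : c.t ∈ zpowers c.t ⊔ Es := mem_sup_left (mem_zpowers _)
  have key : ∀ x ∈ C0 c Es Fs, x ∈ Q → x ∈ normalizer ((zpowers c.t ⊔ Es : Subgroup G) : Set G) →
      x ∈ zpowers c.t ⊔ Es := by
    intro x hx xQ xN
    rcases mem_sup_t (t_Es h) (conj_mem_of_mem_normalizer xN tR) with k | k
    · have := (show Commute x _ from (hx.2 _ k).symm).map (MulAut.conj x⁻¹)
      have k2 : Commute x c.t := by simpa [mul_assoc] using this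
      rw [k2.eq, mul_inv_cancel_right] at k
      exact absurd (Es_le h k) (t_not h)
    · have k2 : Commute (c.t * (x * c.t * x⁻¹)) c.t := by
        have := h.e.sq _ k
        have e : x * c.t * x⁻¹ * (x * c.t * x⁻¹) = 1 := by rw [conj_mul, c.tt, mul_one, mul_inv_cancel]
        generalize x * c.t * x⁻¹ = u at this e
        show c.t * u * c.t = c.t * (c.t * u)
        rw [← mul_assoc c.t, c.tt, one_mul, ← mul_right_cancel_iff (a := u), mul_assoc, this, e]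
      obtain ⟨e, he, k3⟩ := h.e.ker _ k k2
      obtain ⟨d, hd, k4⟩ := h.e.onto e he
      rw [← k3, ← mul_assoc, c.tt, one_mul] at k4
      have dQ : d⁻¹ * x ∈ Q := mul_mem (inv_mem (le (mem_sup_right hd))) xQ
      obtain ⟨i, hi⟩ := hQ.isP ⟨_, dQ⟩
      have hi' : (d⁻¹ * x) ^ 2 ^ i = 1 := congrArg Subtype.val hi
      rw [← Subgroup.mul_mem_cancel_left _ (inv_mem (mem_sup_right hd : d ∈ zpowers c.t ⊔ Es))]
      obtain ⟨e', he', o, ho, k5 | k5⟩ := c.cE _ (comm_of_φ k4) fun e he =>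
        ((h.e.comm d hd _ (h.e.DR e he)).inv_left).mul_left (hx.2 _ (h.e.DR e he)).symm
      · rw [two_unique (oddO ho) (c.LO _ (c.toGF.ι_mem e') o ho).symm hi' (j := 1)
          (by simpa [pow_two] using h.e.sq _ (h.e.DR e' he')) k5]
        exact mem_sup_right (h.e.DR e' he')
      · rw [two_unique (oddO ho) ((c.Ot o ho).mul_right (c.LO _ (c.toGF.ι_mem e') o ho).symm) hi' (j := 1)
          (by rw [pow_one, (c.ιt e').symm.mul_pow, pow_two, pow_two, c.tt, h.e.sq _ (h.e.DR e' he'),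
            one_mul]) k5]
        exact mul_mem tR (mem_sup_right (h.e.DR e' he'))
  have eq : zpowers c.t ⊔ Es = Q := by
    by_contra ne
    obtain ⟨y, ⟨y1, y2⟩, y3⟩ := SetLike.exists_of_lt (H42.lt_inf_normalizer hQ.isP (lt_of_le_of_ne le ne))
    rcases mem_sup_t (t_C0 h) (hQ.le y1) with k | k
    · exact y3 (key y k y1 y2)
    · exact y3 ((Subgroup.mul_mem_cancel_left _ tR).1 (key _ k (mul_mem (le tR) y1) (mul_mem (le_normalizer tR) y2)))
  have := hQ.inf_normal (M := C0 c Es Fs) le_sup_right (sup_le (zpowers_le.2 (t_C0 h)) le_normalizer)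
  rwa [← eq, show (zpowers c.t ⊔ Es) ⊓ C0 c Es Fs = Es from le_antisymm (fun x hx =>
    (mem_sup_t (t_Es h) hx.1).resolve_right fun k => t_not h ((Subgroup.mul_mem_cancel_right _ hx.2).1 (Es_le h k)))
    (le_inf le_sup_right (Es_le h))] at this

section
variable {K : Subgroup G} (ho : Odd (Nat.card K)) (hK : ∀ x, x ∈ K ↔ x ∈ C0 c Es Fs ∧ Odd (orderOf x))
include hK

omit h in
theorem norm_K : normalizer (C0 c Es Fs : Set G) ≤ normalizer (K : Set G) := fun g hg =>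
  mem_normalizer_of_conj_mem fun x hx => (hK _).2 ⟨conj_mem_of_mem_normalizer hg ((hK x).1 hx).1,
    (MulAut.conj g).orderOf_eq x ▸ ((hK x).1 hx).2⟩

theorem mem_O {x : G} (hx : x ∈ K) (ht : Commute x c.t) : x ∈ c.O := by
  obtain ⟨h1, h2⟩ := (hK x).1 hx
  refine mem_of_sq_mem h2 ?_
  obtain ⟨e, he, o, ho, rfl | rfl⟩ := c.cE x ht fun e he => (h1.2 _ (h.e.DR e he)).symm
  · rw [← pow_two, (c.LO _ (c.toGF.ι_mem e) o ho).mul_pow, pow_two, h.e.sq _ (h.e.DR e he), one_mul]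
    exact pow_mem ho 2
  · rw [← pow_two, ((c.Ot o ho).symm.mul_left (c.LO _ (c.toGF.ι_mem e) o ho)).mul_pow,
      (c.ιt e).symm.mul_pow, pow_two, pow_two, c.tt, h.e.sq _ (h.e.DR e he), one_mul, one_mul]
    exact pow_mem ho 2

include ho

theorem K_F {f : T} (hf : f ∈ F) : K ≤ centralizer {c.ι f} := by
  by_cases f1 : f = 1
  · exact fun x _ => mem_centralizer_singleton_iff.2 (by simp [f1])
  have fN : c.ι f ∈ N0 c Es Fs := le1 (c.toGF.ι_mem f)
  have k4 := H18.isKleinFour_four c.tt (h.f.sq _ (h.f.DR f hf)) (c.ιt f).symm.eq c.t1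
    (fun e => f1 (c.inj (e.trans (map_one _).symm))) (fun e => c.not_conj f (e ▸ IsConj.refl _))
  refine H46.le_of_forall_element (p := 2) (IsPGroup.of_card (n := 2) k4.card_four)
    IsKleinFour.isMulCommutative k4.not_isCyclic ho.not_two_dvd_nat
    (H18.four_le (norm_K hK (t_C0 h)) (norm_K hK (N_C0 h fN))) ?_
  have k : ∀ x ∈ c.O, x ∈ centralizer {c.ι f} := fun x hx =>
    mem_centralizer_singleton_iff.2 (h.cO fN x hx).symm
  rintro a (rfl | rfl | rfl | rfl) a1 x ⟨x1, x2⟩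
  · exact absurd rfl a1
  · exact k x (mem_O h hK x1 (mem_centralizer_singleton_iff.1 x2))
  · exact x2
  · obtain ⟨y, hy, e⟩ := h.f.onto f hf
    have x3 : Commute x (y * c.t * y⁻¹) := e ▸ mem_centralizer_singleton_iff.1 x2
    have := mem_O h hK (conj_mem_of_mem_normalizer (norm_K hK (N_C0 h (le3 (inv_mem hy)))) x1)
      (by simpa [mul_assoc] using x3.map (MulAut.conj y⁻¹))
    have e2 : Commute y x := by simpa [mul_assoc] using (h.f.cO y hy _ this).map (MulAut.conj y)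
    rw [e2.inv_left.eq, mul_inv_cancel_right] at this
    exact k x this

theorem K_cen : N0 c Es Fs ≤ centralizer (K : Set G) := by
  let M := N0 c Es Fs ⊓ centralizer (K : Set G)
  have nM : ∀ l ∈ N0 c Es Fs, ∀ m ∈ M, l * m * l⁻¹ ∈ M := fun l hl m hm =>
    mem_inf.2 ⟨mul_mem (mul_mem hl hm.1) (inv_mem hl), conj_mem_of_mem_normalizer
      (H42.normalizer_le_normalizer_centralizer _ (norm_K hK (N_C0 h hl))) hm.2⟩
  have EM : Es ≤ M := le_inf le2 fun a ha x hx => (((hK x).1 hx).1.2 a ha).symm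
  have LM : c.Λ ≤ M := fun l hl => by
    obtain ⟨m, m1, m2, e⟩ := c.toGF.ncl (M := M) (fun l hl => nM l (le1 hl)) (fun f hf =>
      ⟨le1 (c.toGF.ι_mem f), fun x hx => mem_centralizer_singleton_iff.1 (K_F h ho hK hf hx)⟩) hl
    have ml := mul_mem (inv_mem m2) hl
    obtain ⟨e', he', o, oO, k⟩ := c.cL ml fun x hx => by
      show m⁻¹ * l * c.ι x = c.ι x * (m⁻¹ * l)
      calc _ = m⁻¹ * (l * c.ι x * l⁻¹) * l := by group
        _ = _ := by rw [← e x hx]; group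
    rw [← Subgroup.mul_mem_cancel_left _ (inv_mem m1), k]
    refine mul_mem (EM (h.e.DR e' he')) ⟨le1 ?_, fun x hx => h.cO ((hK x).1 hx).1.1 o oO⟩
    rwa [k, Subgroup.mul_mem_cancel_left _ (c.toGF.ι_mem e')] at ml
  refine le_trans (le_of LM EM fun b hb => ?_) inf_le_right
  have h2t := c.Lt _ c.toGF.h2_mem
  have n2 : ∀ b ∈ Fs, c.h2 * b * c.h2⁻¹ ∈ Fs := h.f.norm _ ⟨1, one_mem _, φ_one h2t⟩ (Act.nm_h2 _)
  have fx : ∀ e ∈ F, c.h2 * c.ι e * c.h2⁻¹ = c.ι e → e = 1 := fun e he k =>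
    (by decide +kernel : ∀ e : T, e ∈ F → a2 e = e → e = 1) e he (c.inj ((c.c2 e (Act.FP e he)).symm.trans k))
  let θ : Fs → Fs := fun b => ⟨b * (c.h2 * (b : G)⁻¹ * c.h2⁻¹), mul_mem b.2 (n2 _ (inv_mem b.2))⟩
  have inj : Function.Injective θ := fun b b' e => by
    have e1 : (b : G) * (c.h2 * (b : G)⁻¹ * c.h2⁻¹) = b' * (c.h2 * (b' : G)⁻¹ * c.h2⁻¹) :=
      congrArg Subtype.val e
    have m := mul_mem (inv_mem b'.2) b.2
    have e2 : c.h2 * ((b' : G)⁻¹ * b) * c.h2⁻¹ = (b' : G)⁻¹ * b := by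
      calc _ = (b' : G)⁻¹ * (b' * (c.h2 * (b' : G)⁻¹ * c.h2⁻¹)) * (c.h2 * b * c.h2⁻¹) := by group
        _ = _ := by rw [← e1]; group
    obtain ⟨x, hx, k⟩ := h.f.φ _ m
    obtain ⟨x', hx', k'⟩ := Act.nm_h2 c.toGF x hx
    have k2 := φ_conj h2t k k'
    rw [e2, k, mul_right_inj] at k2
    obtain rfl := fx x hx (k'.trans k2.symm)
    rw [map_one, mul_one] at k
    obtain ⟨y, hy, k3⟩ := h.f.ker _ m (mul_inv_eq_iff_eq_mul.1 k)
    rw [k3] at e2
    rw [fx y hy e2, map_one, inv_mul_eq_one] at k3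
    exact Subtype.ext k3.symm
  obtain ⟨a, e⟩ := Finite.surjective_of_injective inj ⟨b, hb⟩
  have e1 : (a : G) * (c.h2 * (a : G)⁻¹ * c.h2⁻¹) = b := congrArg Subtype.val e
  have := mul_mem (nM _ (le3 a.2) _ (LM c.toGF.h2_mem)) (inv_mem (LM c.toGF.h2_mem))
  rwa [← e1, ← mul_assoc, ← mul_assoc]

end
end Cen

theorem Sx.cen (h : Sx c Es Fs) {x : G} (hx : x ∈ N0 c Es Fs) (hc : ∀ a ∈ Es, Commute x a) :
    ∃ a ∈ Es, ∃ o ∈ N0 c Es Fs, Odd (orderOf o) ∧ (∀ n ∈ N0 c Es Fs, Commute o n) ∧ x = a * o := by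
  have S := syl h
  obtain ⟨K, ho, hK⟩ := exists_odd S.le h.e.sq (fun x hx a ha => (hx.2 a ha).symm) S.ndvd
  have le : zpowers x ≤ C0 c Es Fs := zpowers_le.2 ⟨hx, fun a ha => (hc a ha).eq.symm⟩
  obtain ⟨a, o, k, a1, o1, a2, o2, e, -⟩ := exists_parts x
  refine ⟨a, ?_, o, (le o1).1, o2, fun n hn => K_cen h ho hK hn o ((hK o).2 ⟨le o1, o2⟩), e⟩
  obtain ⟨g, hg, e⟩ := S.exists_conj (R := zpowers a) (IsPGroup.of_card (n := Nat.log 2 (orderOf a)) (by
    obtain ⟨j, -, hj⟩ := (Nat.dvd_prime_pow Nat.prime_two).1 (orderOf_dvd_of_pow_eq_one a2)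
    rw [Nat.card_zpowers, hj, Nat.log_pow (by decide)])) (zpowers_le.2 (le a1))
  simpa [mul_assoc] using h.normE (inv_mem hg.1) _ (e a (mem_zpowers a))

end Cfsg.Agent.WR
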