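import Cfsg.Agent.WR.BasT

/-! Project WR: the `J`-lemma in `T × T` (notes/WR.md, section JL). -/

set_option autoImplicit false
set_option maxRecDepth 100000
set_option synthInstance.maxSize 4096

namespace Cfsg.Agent.WR

open Subgroup Cfsg.Agent.H78
open Cfsg.Agent.H42 (SylIn cj)

/-- the four elementary abelian subgroups of order `2⁸` of `T × T` -/
def Vx (p : Bool × Bool) : Subgroup (T × T) := (bif p.1 then F else E).prod (bif p.2 then F else E)

theorem card_prod' (H K : Subgroup T) : Nat.card (H.prod K) = Nat.card H * Nat.card K := by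
  rw [Nat.card_congr (prodEquiv H K).toEquiv, Nat.card_prod]

theorem card_Vx (p : Bool × Bool) : Nat.card (Vx p) = 256 := by
  obtain ⟨_ | _, _ | _⟩ := p <;> simp only [Vx, cond_true, cond_false, card_prod', card_E, card_F]

theorem sq_EF (b : Bool) {a : T} (h : a ∈ (bif b then F else E)) : a * a = 1 := by
  cases b
  exacts [(E_facts a h).1, (F_facts a h).1]

theorem sq_Vx (p : Bool × Bool) : ∀ a ∈ Vx p, a * a = 1 := fun _ h =>
  Prod.ext (sq_EF _ h.1) (sq_EF _ h.2)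

theorem le_proj (B : Subgroup (T × T)) :
    B ≤ (B.map (MonoidHom.fst T T)).prod (B.map (MonoidHom.snd T T)) := fun b hb =>
  ⟨⟨b, hb, rfl⟩, ⟨b, hb, rfl⟩⟩

theorem sq_map {B : Subgroup (T × T)} (h : ∀ a ∈ B, a * a = 1) (f : T × T →* T) :
    ∀ a ∈ B.map f, a * a = 1 := by
  rintro _ ⟨a, ha, rfl⟩
  rw [← map_mul, h a ha, map_one]

theorem eq_Vx {B : Subgroup (T × T)} (h : ∀ a ∈ B, a * a = 1) (hc : 256 ≤ Nat.card B) :
    ∃ p, B = Vx p := by
  have h1 := elem_le (sq_map h (MonoidHom.fst T T))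
  have h2 := elem_le (sq_map h (MonoidHom.snd T T))
  have h3 := hc.trans (card_le_of_le (le_proj B))
  rw [card_prod'] at h3
  have e1 := elem_eq (sq_map h (MonoidHom.fst T T)) (by nlinarith)
  have e2 := elem_eq (sq_map h (MonoidHom.snd T T)) (by nlinarith)
  have k : ∀ p, (B.map (MonoidHom.fst T T)).prod (B.map (MonoidHom.snd T T)) = Vx p → ∃ p, B = Vx p :=
    fun p e => ⟨p, eq_of_le_of_card_ge (e ▸ le_proj B) (card_Vx p ▸ hc)⟩
  rcases e1 with e1 | e1 <;> rcases e2 with e2 | e2 <;> rw [e1, e2] at k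
  exacts [k (false, false) rfl, k (false, true) rfl, k (true, false) rfl, k (true, true) rfl]

/-- the number of square roots -/
noncomputable def nsq {Γ : Type*} [Group Γ] (x : Γ) : ℕ := Nat.card {y // y * y = x}

theorem nsq_aut {Γ : Type*} [Group Γ] (θ : MulAut Γ) (x : Γ) : nsq (θ x) = nsq x :=
  (Nat.card_congr (θ.toEquiv.subtypeEquiv fun y => by
    rw [← θ.injective.eq_iff, map_mul]; rfl)).symm

theorem nsq_prod (a b : T) : nsq (a, b) = nsq a * nsq b := by
  rw [nsq, nsq, nsq, ← Nat.card_prod, ← Nat.card_congr Equiv.subtypeProdEquivProd]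
  exact Nat.card_congr (Equiv.subtypeEquivRight fun y => Prod.ext_iff)

theorem nsq_one : nsq (1 : T) = 36 := card_of _ 36 (by decide +kernel)

theorem nsq_z : nsq z = 20 := card_of _ 20 (by decide +kernel)

theorem aut_cen (θ : MulAut (T × T)) {a b : T} (ha : a = 1 ∨ a = z) (hb : b = 1 ∨ b = z) :
    θ (a, b) = (1, 1) ∨ θ (a, b) = (1, z) ∨ θ (a, b) = (z, 1) ∨ θ (a, b) = (z, z) := by
  have k : ∀ g, g * θ (a, b) = θ (a, b) * g := fun g => by
    obtain ⟨g, rfl⟩ := θ.surjective g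
    rw [← map_mul, ← map_mul]
    exact congrArg θ (Prod.ext ((mem_center a).2 ha _) ((mem_center b).2 hb _))
  have h1 := (mem_center (θ (a, b)).1).1 fun g => congrArg Prod.fst (k (g, 1))
  have h2 := (mem_center (θ (a, b)).2).1 fun g => congrArg Prod.snd (k (1, g))
  simp only [Prod.ext_iff]
  tauto

theorem aut_zz (θ : MulAut (T × T)) : θ (z, z) = (z, z) := by
  have := nsq_aut θ (z, z)
  rcases aut_cen θ (.inr rfl) (.inr rfl) with e | e | e | e
  iterate 3
    rw [e] at this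
    simp only [nsq_prod, nsq_one, nsq_z] at this
    omega
  exact e

theorem aut_z1 (θ : MulAut (T × T)) : θ (z, 1) = (z, 1) ∨ θ (z, 1) = (1, z) := by
  have := nsq_aut θ (z, 1)
  rcases aut_cen θ (.inr rfl) (.inl rfl) with e | e | e | e
  any_goals
    rw [e] at this
    simp only [nsq_prod, nsq_one, nsq_z] at this
    omega
  exacts [.inr e, .inl e]

/-- the orders of the intersections -/
def cV (p q : Bool × Bool) : ℕ := (if p.1 = q.1 then 16 else 4) * (if p.2 = q.2 then 16 else 4)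

theorem prod_inf (H K H' K' : Subgroup T) : H.prod K ⊓ H'.prod K' = (H ⊓ H').prod (K ⊓ K') := by
  ext x
  simp only [mem_inf, mem_prod]
  tauto

theorem card_inf (p q : Bool × Bool) : Nat.card ↥(Vx p ⊓ Vx q) = cV p q := by
  have e : E ⊓ F = W := Subgroup.ext fun x => (mem_W x).symm
  have e' : F ⊓ E = W := inf_comm E F ▸ e
  obtain ⟨_ | _, _ | _⟩ := p <;> obtain ⟨_ | _, _ | _⟩ := q <;>
    simp only [Vx, cond_true, cond_false, prod_inf, inf_idem, e, e', card_prod', card_E, card_F, card_W] <;> rfl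

theorem opp {p : Bool × Bool} {x : T × T} (h : x ∈ Vx p) (h' : x ∈ Vx (!p.1, !p.2)) : x ∈ W.prod W := by
  obtain ⟨_ | _, _ | _⟩ := p <;> exact ⟨(mem_W _).2 ⟨by first | exact h.1 | exact h'.1, by
    first | exact h.1 | exact h'.1⟩, (mem_W _).2 ⟨by first | exact h.2 | exact h'.2, by
    first | exact h.2 | exact h'.2⟩⟩

theorem three {p q r : Bool × Bool} (h1 : p ≠ q) (h2 : r ≠ p) (h3 : r ≠ q) {x : T × T} (hp : x ∈ Vx p)
    (hq : x ∈ Vx q) (hr : x ∈ Vx r) : x ∈ W.prod W := by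
  rcases (by decide : ∀ p q r : Bool × Bool, p ≠ q → r ≠ p → r ≠ q → q = (!p.1, !p.2) ∨
    r = (!p.1, !p.2) ∨ r = (!q.1, !q.2)) p q r h1 h2 h3 with rfl | rfl | rfl
  exacts [opp hp hq, opp hp hr, opp hq hr]

theorem bound {Γ : Type*} [Group Γ] [Finite Γ] {H K L : Subgroup Γ} (h : H ≤ L) {n : ℕ}
    (e : Nat.card L ≤ Nat.card ↥(K ⊓ L) * n) : Nat.card H ≤ Nat.card ↥(K ⊓ H) * n := by
  rw [← H42.card_mul_relIndex (inf_le_right : K ⊓ L ≤ L), inf_relIndex_right] at e
  rw [← H42.card_mul_relIndex (inf_le_right : K ⊓ H ≤ H), inf_relIndex_right]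
  exact Nat.mul_le_mul_left _ ((relIndex_le_of_le_right h FiniteIndex.index_ne_zero).trans
    (Nat.le_of_mul_le_mul_left e Nat.card_pos))

theorem core_le {B : Subgroup (T × T)} (h : ∀ a ∈ B, a * a = 1) : ∃ p, P.prod P ⊓ B ≤ Vx p := by
  have h' : ∀ a ∈ P.prod P ⊓ B, a * a = 1 := fun a ha => h a ha.2
  have k := le_proj (P.prod P ⊓ B)
  rcases elem_P (sq_map h' (MonoidHom.fst T T)) (by rintro _ ⟨a, ha, rfl⟩; exact ha.1.1) with e | e <;>
    rcases elem_P (sq_map h' (MonoidHom.snd T T)) (by rintro _ ⟨a, ha, rfl⟩; exact ha.1.2) with e' | e' <;>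
    replace k := k.trans (prod_mono e e')
  exacts [⟨(false, false), k⟩, ⟨(false, true), k⟩, ⟨(true, false), k⟩, ⟨(true, true), k⟩]

theorem bound_B {B : Subgroup (T × T)} (h : ∀ a ∈ B, a * a = 1) {m : ℕ}
    (e : Nat.card ↥(P.prod P ⊓ B) ≤ Nat.card ↥(W.prod W ⊓ B) * m) :
    Nat.card B ≤ 32 * m ∧ (Nat.card B ≤ 16 * m ∨ Nat.card B ≤ 64) := by
  have cW : Nat.card (W.prod W) = 16 := by rw [card_prod', card_W]
  by_cases hW : W.prod W ≤ B
  · have cm : ∀ a ∈ B, ∀ b ∈ B, a * b = b * a := fun a ha b hb => by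
      rw [← inv_eq_of_mul_eq_one_right (h _ (B.mul_mem ha hb)), mul_inv_rev,
        inv_eq_of_mul_eq_one_right (h a ha), inv_eq_of_mul_eq_one_right (h b hb)]
    have cP : ∀ x : T, x * w0 = w0 * x → x ∈ P := by decide +kernel
    have w' : w0 ∈ W := by decide +kernel
    have w : (w0, w0) ∈ W.prod W := ⟨w', w'⟩
    rw [inf_eq_right.2 fun a ha => (⟨cP _ (congrArg Prod.fst (cm a ha _ (hW w))),
      cP _ (congrArg Prod.snd (cm a ha _ (hW w)))⟩ : a ∈ P.prod P), inf_eq_left.2 hW, cW] at e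
    omega
  · have c8 : Nat.card ↥(W.prod W ⊓ B) ≤ 8 := by
      have h1 := card_dvd_of_le (inf_le_left : W.prod W ⊓ B ≤ _)
      have h2 : Nat.card ↥(W.prod W ⊓ B) ≠ 16 := fun c =>
        hW (inf_eq_left.1 (eq_of_le_of_card_ge inf_le_left (by rw [c, cW])))
      rw [cW] at h1
      exact (by decide : ∀ n ≤ 16, n ∣ 16 → n ≠ 16 → n ≤ 8) _ (Nat.le_of_dvd (by decide) h1) h1 h2
    replace e := e.trans (Nat.mul_le_mul_right m c8)
    have cT : Nat.card (⊤ : Subgroup T) = 128 := by rw [card_top, card_T]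
    have h4 := bound (K := P.prod P) (n := 4) (le_top : B ≤ ⊤) (by
      rw [inf_top_eq, card_top, Nat.card_prod, card_prod', card_T, card_P])
    refine ⟨by omega, ?_⟩
    by_cases h1 : B.map (MonoidHom.fst T T) ≤ P
    · have := bound (K := P.prod P) (n := 2) ((le_proj B).trans (prod_mono h1 le_top)) (by
        rw [prod_inf, inf_idem, inf_top_eq, card_prod', card_prod', cT, card_P])
      omega
    by_cases h2 : B.map (MonoidHom.snd T T) ≤ P
    · have := bound (K := P.prod P) (n := 2) ((le_proj B).trans (prod_mono le_top h2)) (by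
        rw [prod_inf, inf_idem, inf_top_eq, card_prod', card_prod', cT, card_P])
      omega
    have := card_le_of_le (le_proj B)
    rw [card_prod'] at this
    exact .inr (this.trans (Nat.mul_le_mul (elem_out (sq_map h _) h1) (elem_out (sq_map h _) h2)))

theorem K1 {B : Subgroup (T × T)} (h : ∀ a ∈ B, a * a = 1) {s : Equiv.Perm (Bool × Bool)} (hs : s ≠ 1)
    (f : ∀ x ∈ B, ∀ q, x ∈ Vx q → x ∈ Vx (s q)) : Nat.card B ≤ 64 := by
  obtain ⟨p, hp⟩ := core_le h
  obtain ⟨r, c, ne, k⟩ := (by decide +kernel : ∀ s : Equiv.Perm (Bool × Bool), s ≠ 1 → ∀ p, ∃ r,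
    cV r p = 64 ∧ p ≠ r ∧ (s p ≠ p ∧ s p ≠ r ∨ s r ≠ p ∧ s r ≠ r)) s hs p
  have := (bound_B h (m := 4) ((bound (K := Vx r) hp (by rw [card_inf, c, card_Vx])).trans
    (Nat.mul_le_mul_right _ (card_le_of_le fun x hx => ⟨?_, hx.2.2⟩)))).2
  · omega
  · rcases k with k | k
    exacts [three ne k.1 k.2 (hp hx.2) hx.1 (f x hx.2.2 _ (hp hx.2)),
      three ne k.1 k.2 (hp hx.2) hx.1 (f x hx.2.2 _ hx.1)]

theorem K2 {B : Subgroup (T × T)} (h : ∀ a ∈ B, a * a = 1)
    (f : ∀ x ∈ B, ∀ q, x ∈ Vx q → x ∈ Vx (!q.1, !q.2)) : Nat.card B ≤ 32 := by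
  obtain ⟨p, hp⟩ := core_le h
  exact (bound_B h (m := 1) (by
    rw [mul_one]; exact card_le_of_le fun x hx => ⟨opp (hp hx) (f x hx.2 _ (hp hx)), hx.2⟩)).1

variable {G : Type*} [Group G] [Finite G]

omit [Finite G] in
theorem eq_M {κ : T × T →* G} (hκ : Function.Injective κ) {D : Subgroup G} (le : D ≤ κ.range)
    (h : ∀ a ∈ D, a * a = 1) (hc : 256 ≤ Nat.card D) : ∃ q, D = (Vx q).map κ := by
  have e := map_comap_eq_self le
  obtain ⟨q, hq⟩ := eq_Vx (B := D.comap κ) (fun a ha => hκ (by rw [map_mul, h _ ha, map_one]))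
    (by rwa [← card_map_of_injective hκ, e])
  exact ⟨q, by rw [← hq, e]⟩

omit [Finite G] in
theorem sq_M {κ : T × T →* G} (g : G) (p : Bool × Bool) : ∀ a ∈ cj g ((Vx p).map κ), a * a = 1 := by
  rintro _ ⟨_, ⟨a, ha, rfl⟩, rfl⟩
  rw [← map_mul, ← map_mul, sq_Vx p a ha, map_one, map_one]

omit [Finite G] in
theorem card_M {κ : T × T →* G} (hκ : Function.Injective κ) (g : G) (p : Bool × Bool) :
    Nat.card (cj g ((Vx p).map κ)) = 256 := by rw [H42.card_cj, card_map_of_injective hκ, card_Vx]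

omit [Finite G] in
theorem card_MM {κ : T × T →* G} (hκ : Function.Injective κ) (p q : Bool × Bool) :
    Nat.card ↥((Vx p).map κ ⊓ (Vx q).map κ) = cV p q := by
  rw [← map_inf _ _ _ hκ, card_map_of_injective hκ, card_inf]

omit [Finite G] in
theorem M_inj {κ : T × T →* G} (hκ : Function.Injective κ) {p q : Bool × Bool}
    (e : (Vx p).map κ = (Vx q).map κ) : p = q := by
  have := card_MM hκ p q
  rw [← e, inf_idem, card_map_of_injective hκ, card_Vx] at this
  exact (by decide : ∀ p q, 256 = cV p q → p = q) p q this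

/-- `J`-lemma -/
theorem jlemma {κ : T × T →* G} (hκ : Function.Injective κ) {R A : Subgroup G}
    (hR : ∀ r ∈ R, ∀ p, r * κ p * r⁻¹ ∈ κ.range)
    (hk : ∀ r ∈ R, (∀ p, ∀ a ∈ Vx p, r * κ a * r⁻¹ ∈ (Vx p).map κ) → r ∈ κ.range)
    (hA : A ≤ R) (h2 : ∀ a ∈ A, a * a = 1) (hc : 256 ≤ Nat.card A) : A ≤ κ.range := by
  have k : ∀ (a : A) p, ∃ q, cj (a : G) ((Vx p).map κ) = (Vx q).map κ := fun a p =>
    eq_M hκ (H42.cj_le_iff.2 (by rintro _ ⟨b, -, rfl⟩; exact hR _ (hA a.2) b)) (sq_M _ p)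
      (card_M hκ _ p).ge
  choose s hs using k
  let act : MulAction A (Bool × Bool) :=
    { smul := s
      one_smul := fun p => M_inj hκ ((hs 1 p).symm.trans (H42.cj_one _))
      mul_smul := fun a b p => M_inj hκ ((hs (a * b) p).symm.trans (by
        rw [coe_mul, ← H42.cj_cj, hs]; exact hs a _)) }
  let φ := MulAction.toPermHom A (Bool × Bool)
  have hφ : ∀ a p, φ a p = s a p := fun _ _ => rfl
  clear_value φ
  have ker : ∀ a, φ a = 1 → (a : G) ∈ κ.range := fun a e => hk _ (hA a.2) fun p b hb => by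
    have := H42.conj_mem_cj (g := (a : G)) (mem_map_of_mem κ hb)
    rwa [hs, ← hφ, e] at this
  by_contra hn
  obtain ⟨a0, ha0, n0⟩ := SetLike.not_le_iff_exists.1 hn
  have hB : ∀ b ∈ A.comap κ, b * b = 1 := fun b hb => hκ (by rw [map_mul, h2 _ hb, map_one])
  have fx : ∀ a, ∀ x ∈ A.comap κ, ∀ q, x ∈ Vx q → x ∈ Vx (φ a q) := fun a x hx q hq => by
    have := H42.conj_mem_cj (g := (a : G)) (mem_map_of_mem κ hq)
    rw [hs, ← hφ, mul_inv_eq_iff_eq_mul.2 (show (a : G) * κ x = κ x * a by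
      rw [← inv_eq_of_mul_eq_one_right (h2 _ (A.mul_mem a.2 hx)), mul_inv_rev,
        inv_eq_of_mul_eq_one_right (h2 _ a.2), inv_eq_of_mul_eq_one_right (h2 _ hx)])] at this
    exact (mem_map_iff_mem hκ).1 this
  have c1 : Nat.card φ.ker ≤ Nat.card (A.comap κ) := by
    rw [← card_map_of_injective A.subtype_injective, ← card_map_of_injective hκ]
    refine card_le_of_le ?_
    rintro _ ⟨a, ha, rfl⟩
    obtain ⟨b, e⟩ := ker a ha
    exact ⟨b, show κ b ∈ A from e ▸ a.2, e⟩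
  have c2 := φ.ker.card_mul_index
  rw [index_ker] at c2
  have pr : ∀ u ∈ φ.range, u * u = 1 ∧ ∀ p q, cV (u p) (u q) = cV p q := by
    rintro _ ⟨a, rfl⟩
    exact ⟨by rw [← map_mul, show a * a = 1 from Subtype.ext (h2 _ a.2), map_one], fun p q => by
      rw [← card_MM hκ, hφ, hφ, ← hs, ← hs, ← H42.cj_inf, H42.card_cj, card_MM hκ]⟩
  have cl : ∀ (q : Equiv.Perm (Bool × Bool) → Prop) [DecidablePred q], (∀ u ∈ φ.range, q u) →
      Nat.card φ.range ≤ (Finset.univ.filter q).card := fun q _ h => by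
    rw [← Fintype.card_subtype, ← Nat.card_eq_fintype_card]
    exact Nat.card_le_card_of_injective (fun a : φ.range => (⟨a, h a a.2⟩ : {x // q x}))
      fun a b e => Subtype.ext (Subtype.mk.inj e)
  by_cases an : ∃ a, ∀ q, φ a q = (!q.1, !q.2)
  · obtain ⟨a, e⟩ := an
    have h1 := c1.trans (K2 hB fun x hx q hq => e q ▸ fx a x hx q hq)
    have h3 := Nat.mul_le_mul h1 ((cl _ pr).trans (show _ ≤ 6 by decide +kernel))
    omega
  · have n1 : φ ⟨a0, ha0⟩ ≠ 1 := fun e => n0 (ker _ e)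
    have h1 := c1.trans (K1 hB n1 (fx _))
    have h3 : Nat.card φ.range ≤ 2 := (cl (fun u => u = 1 ∨ u = φ ⟨a0, ha0⟩) fun u hu => by
      obtain ⟨b, rfl⟩ := id hu
      have := (by decide +kernel : ∀ u : Equiv.Perm (Bool × Bool), u * u = 1 →
        (∀ p q, cV (u p) (u q) = cV p q) → (¬ ∀ q, u q = (!q.1, !q.2)) → ∀ v : Equiv.Perm (Bool × Bool),
        v * v = 1 → (∀ p q, cV (v p) (v q) = cV p q) → (¬ ∀ q, v q = (!q.1, !q.2)) →
        u * v * (u * v) = 1 → (¬ ∀ q, (u * v) q = (!q.1, !q.2)) → v ≠ 1 → u = 1 ∨ u = v)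
      exact this _ (pr _ hu).1 (pr _ hu).2 (fun e => an ⟨b, e⟩) _ (pr _ ⟨_, rfl⟩).1 (pr _ ⟨_, rfl⟩).2
        (fun e => an ⟨_, e⟩) (pr _ (mul_mem hu ⟨_, rfl⟩)).1 (fun e => an ⟨b * _, by rwa [map_mul]⟩) n1).trans
      ((by decide +kernel : ∀ v : Equiv.Perm (Bool × Bool),
        (Finset.univ.filter fun u => u = 1 ∨ u = v).card ≤ 2) _)
    have := Nat.mul_le_mul h1 h3
    omega

end Cfsg.Agent.WR
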