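import Cfsg.Agent.WR.Bas2

set_option autoImplicit false
set_option linter.unusedSectionVars false

namespace Cfsg.Agent.WR

open Subgroup Cfsg.Agent.H78
open Cfsg.Agent.H42 (SylIn cj)

variable {G : Type*} [Group G] [Finite G] {c : Cf G} {κ : T × T →* G} {S : Subgroup G}

/-- the product with the factors interchanged -/
def flp (κ : T × T →* G) : T × T →* G := κ.comp (MulEquiv.prodComm : T × T ≃* T × T).toMonoidHom

omit [Finite G] in
theorem flp_apply (a b : T) : flp κ (a, b) = κ (b, a) := rfl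
theorem range_flp : (flp κ).range = κ.range := by
  ext g
  constructor
  · rintro ⟨⟨a, b⟩, rfl⟩
    exact ⟨(b, a), rfl⟩
  · rintro ⟨⟨a, b⟩, rfl⟩
    exact ⟨(b, a), rfl⟩
theorem Ac.swap {r : G} {β₁ β₂ : MulAut T} (h : Ac κ r β₁ β₂) : Ac (flp κ) r β₂ β₁ :=
  fun a b => h b a
theorem Ac.mul {r s : G} {β₁ β₂ γ₁ γ₂ : MulAut T} (h : Ac κ r β₁ β₂) (h' : Ac κ s γ₁ γ₂) :
    Ac κ (r * s) (β₁ * γ₁) (β₂ * γ₂) := by
  intro a b
  have e : r * s * κ (a, b) * (r * s)⁻¹ = r * (s * κ (a, b) * s⁻¹) * r⁻¹ := by group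
  rw [e, h' a b, h]
  rfl
theorem Ac.inv {r : G} {β₁ β₂ : MulAut T} (h : Ac κ r β₁ β₂) : Ac κ r⁻¹ β₁⁻¹ β₂⁻¹ := by
  intro a b
  have e := h (β₁⁻¹ a) (β₂⁻¹ b)
  rw [MulAut.apply_inv_self, MulAut.apply_inv_self] at e
  rw [← e]
  group
theorem ac_κ (a b : T) : Ac κ (κ (a, b)) (MulAut.conj a) (MulAut.conj b) := by
  intro x y
  rw [← map_inv, ← map_mul, ← map_mul]
  rfl

namespace Sym

omit [Finite G] in
theorem tinv (c : Cf G) : c.t⁻¹ = c.t := inv_eq_of_mul_eq_one_right c.tt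

omit [Finite G] in
theorem sw' (h : Pr c κ) (a b : T) : c.t * κ (a, b) * c.t⁻¹ = κ (b, a) := by
  rw [tinv, h.sw]

omit [Finite G] in
theorem tconj (h : Pr c κ) (g : G) (a b : T) :
    c.t * g * c.t * κ (a, b) * (c.t * g * c.t)⁻¹ = c.t * (g * κ (b, a) * g⁻¹) * c.t⁻¹ := by
  rw [← sw' h a b]
  have e : c.t * g * c.t * κ (a, b) * (c.t * g * c.t)⁻¹ =
    c.t * (g * (c.t * κ (a, b) * c.t⁻¹) * g⁻¹) * c.t⁻¹ := by group
  exact e

omit [Finite G] in
theorem tX {g : G} (hg : g ∈ c.X) : c.t * g * c.t ∈ c.X := by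
  have := c.Xn.conj_mem g hg c.t
  rwa [tinv] at this

omit [Finite G] in
theorem z2 (h : Pr c κ) : κ (1, z) = (κ (z, 1))⁻¹ * c.ι z := by
  rw [← h.diag, ← map_inv, ← map_mul]
  congr 1

omit [Finite G] in
theorem comm2 (h : Pr c κ) {r : G} (h1 : Commute r (κ (z, 1))) (h2 : Commute r (c.ι z)) :
    Commute r (κ (1, z)) := by
  rw [z2 h]
  exact h1.inv_right.mul_right h2

omit [Finite G] in
theorem conj12 (h : Pr c κ) (a b : T) : IsConj (κ (a, b)) (κ (b, a)) :=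
  isConj_iff.2 ⟨c.t, sw' h a b⟩

end Sym

open Sym

theorem Ac.t (h : Pr c κ) {r : G} {β₁ β₂ : MulAut T} (hr : Ac κ r β₁ β₂) :
    Ac κ (c.t * r * c.t) β₂ β₁ := by
  intro a b
  rw [tconj h, hr, sw' h]
theorem Ac.unique (h : Pr c κ) {r : G} {β₁ β₂ γ₁ γ₂ : MulAut T} (h1 : Ac κ r β₁ β₂)
    (h2 : Ac κ r γ₁ γ₂) : β₁ = γ₁ ∧ β₂ = γ₂ := by
  have key : ∀ a, β₁ a = γ₁ a ∧ β₂ a = γ₂ a := fun a => by
    have e := h.inj ((h1 a a).symm.trans (h2 a a))
    exact Prod.mk.inj e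
  exact ⟨MulEquiv.ext fun a => (key a).1, MulEquiv.ext fun a => (key a).2⟩
theorem Ac.fx (h : Pr c κ) {r : G} {β₁ β₂ : MulAut T} (h1 : Ac κ r β₁ β₂) (hr : r ∈ κ.range) :
    Fx β₁ ∧ Fx β₂ := by
  obtain ⟨⟨a, b⟩, rfl⟩ := hr
  obtain ⟨e1, e2⟩ := Ac.unique h h1 (ac_κ a b)
  rw [e1, e2]
  exact ⟨fx_conj a, fx_conj b⟩
theorem Pr.swap (h : Pr c κ) : Pr c (flp κ) where
  inj := h.inj.comp (MulEquiv.prodComm : T × T ≃* T × T).injective
  sw a b := h.sw b a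
  diag x := h.diag x
  L l hl := by
    obtain ⟨g, hg, h1, h2⟩ := h.L l hl
    refine ⟨c.t * g * c.t, tX hg, fun b => ?_, fun x y e => ?_⟩
    · have e : c.t * g * c.t * κ (b, 1) * (c.t * g * c.t)⁻¹ = κ (b, 1) := by
        rw [tconj h, (h1 b).eq, mul_inv_cancel_right, sw' h]
      exact mul_inv_eq_iff_eq_mul.1 e
    · show c.t * g * c.t * κ (1, x) * (c.t * g * c.t)⁻¹ = κ (1, y)
      rw [tconj h, h2 x y e, sw' h]
  FF g hg hN a ha b hb := by
    obtain ⟨a', ha', b', hb', e⟩ := h.FF g hg hN b hb a ha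
    exact ⟨b', hb', a', ha', e⟩
theorem Sy.swap (h : Pr c κ) (hS : Sy c κ S) : Sy c (flp κ) S where
  syl := hS.syl
  le := range_flp.le.trans hS.le
  tS := hS.tS
  norm r hr p := by
    rw [range_flp]
    exact hS.norm r hr (p.2, p.1)
  ker r hr β₁ β₂ hA h1 h2 := by
    rw [range_flp]
    exact hS.ker r hr β₂ β₁ (fun a b => hA b a) h2 h1
  half r hr := by
    rcases hS.half r hr with h1 | h1
    · exact Or.inl (comm2 h h1 (hS.cz r hr))
    · exact Or.inr (comm2 h h1 (hS.cz _ (S.mul_mem hr hS.tS)))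
  cz := hS.cz
  sylz := by
    have e : cj c.t (centralizer {κ (z, 1)}) = centralizer {κ (1, z)} := by
      ext g
      rw [H42.mem_cj, mem_centralizer_singleton_iff, mem_centralizer_singleton_iff, ← sw' h z 1]
      constructor
      · intro e
        calc g * (c.t * κ (z, 1) * c.t⁻¹) = c.t * (c.t⁻¹ * g * c.t * κ (z, 1)) * c.t⁻¹ := by group
          _ = _ := by rw [e]; group
      · intro e
        calc c.t⁻¹ * g * c.t * κ (z, 1) = c.t⁻¹ * (g * (c.t * κ (z, 1) * c.t⁻¹)) * c.t := by group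
          _ = _ := by rw [e]; group
    have := hS.sylz.cj c.t
    rw [H42.cj_inf, H42.cj_of_mem hS.tS, e] at this
    exact this
  nconj hc := hS.nconj ((conj12 h z 1).trans hc)
theorem Fu.swap (h : Pr c κ) (hS : Sy c κ S) (hF : Fu c κ) : Fu c (flp κ) where
  nt p := hF.nt (p.2, p.1)
  one a h2 h1 := by
    obtain ⟨g, hg, e⟩ := hF.one a h2 h1
    refine ⟨c.t * g * c.t, tX hg, ?_⟩
    show c.t * g * c.t * κ (1, a) * (c.t * g * c.t)⁻¹ = κ (1, z)
    rw [tconj h, e, sw' h]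
  mix a b ha ha1 hb hb1 := hF.mix b a hb hb1 ha ha1
  act r hr hz := by
    have _ := hS
    obtain ⟨β₁, β₂, hA⟩ := hF.act (c.t * r * c.t) (fun p => by
      obtain ⟨a, b⟩ := p
      obtain ⟨⟨a', b'⟩, e⟩ := hr (a, b)
      rw [tconj h]
      have e' : r * κ (b, a) * r⁻¹ = κ (b', a') := e.symm
      rw [e', sw' h]
      exact ⟨_, rfl⟩) (by
      have hz' : r * κ (1, z) = κ (1, z) * r := hz.eq
      have e : c.t * r * c.t * κ (z, 1) * (c.t * r * c.t)⁻¹ = κ (z, 1) := by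
        rw [tconj h, hz', mul_inv_cancel_right, sw' h]
      exact mul_inv_eq_iff_eq_mul.1 e)
    have hA' := Ac.t h hA
    have e : c.t * (c.t * r * c.t) * c.t = r := by
      calc c.t * (c.t * r * c.t) * c.t = (c.t * c.t) * r * (c.t * c.t) := by group
        _ = r := by rw [c.tt]; group
    rw [e] at hA'
    exact ⟨β₁, β₂, hA'.swap⟩
theorem Ou.swap (h : Pr c κ) (hS : Sy c κ S) (hO : Ou c κ S) : Ou c (flp κ) S where
  le := range_flp.le.trans hO.le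
  tX := hO.tX
  cz r hr hX := comm2 h (hO.cz r hr hX) (hS.cz r hr)
  inv := by
    rcases hO.inv with h1 | ⟨r, hr, hX, h2, β₁, β₂, hA, h3, h4⟩
    · exact Or.inl (h1.trans range_flp.ge)
    · exact Or.inr ⟨r, hr, hX, h2, β₂, β₁, hA.swap, h4, h3⟩
  rho u hu h2 ht hH p := hO.rho u hu h2 ht hH (p.2, p.1)
theorem Oz.swap (h : Pr c κ) (hO : Oz c κ S) : Oz c (flp κ) S where
  Z r hr hc := by
    rw [range_flp]
    exact hO.Z r hr ((conj12 h z 1).trans hc)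
  sep g hg e := by
    refine hO.sep g⁻¹ (c.X.inv_mem hg) ?_
    have e' : g * κ (1, z) * g⁻¹ = κ (z, 1) := e
    rw [← e']
    group
/-- the class of `κ (z, 1)` in `T × T` -/
theorem Fu.cases (h : Pr c κ) (hS : Sy c κ S) (hF : Fu c κ) {a b : T}
    (hc : IsConj (κ (z, 1)) (κ (a, b))) :
    (a * a = 1 ∧ a ≠ 1 ∧ b = 1) ∨ (a = 1 ∧ b * b = 1 ∧ b ≠ 1) := by
  obtain ⟨g, hg⟩ := isConj_iff.1 hc
  have hzz : z * z = 1 ∧ z ≠ 1 := by decide +kernel
  have h2 : κ (a * a, b * b) = κ 1 := by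
    have e : κ (a * a, b * b) = κ (a, b) * κ (a, b) := by rw [← map_mul]; rfl
    have e2 : κ (z, 1) * κ (z, 1) = 1 := by
      rw [← map_mul, ← map_one κ]
      congr 1
    rw [e, ← hg, map_one]
    calc g * κ (z, 1) * g⁻¹ * (g * κ (z, 1) * g⁻¹) = g * (κ (z, 1) * κ (z, 1)) * g⁻¹ := by group
      _ = 1 := by rw [e2]; group
  have h3 := Prod.mk.inj (h.inj h2)
  have h1 : ¬ (a = 1 ∧ b = 1) := by
    rintro ⟨rfl, rfl⟩
    have e : κ (z, 1) = κ 1 := by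
      have e1 : κ ((1 : T), (1 : T)) = 1 := map_one κ
      rw [e1] at hc
      rw [map_one]
      exact isConj_one_left.1 hc
    exact hzz.2 (Prod.mk.inj (h.inj e)).1
  by_cases ha : a = 1
  · exact Or.inr ⟨ha, h3.2, fun hb => h1 ⟨ha, hb⟩⟩
  by_cases hb : b = 1
  · exact Or.inl ⟨h3.1, ha, hb⟩
  exact absurd (hc.trans (hF.mix a b h3.1 ha h3.2 hb).symm) hS.nconj
/-- squares of elements centralising `κ (z, 1)` -/
theorem Sy.sq (hS : Sy c κ S) (hF : Fu c κ) {r : G} (hr : r ∈ S) (hz : Commute r (κ (z, 1))) :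
    r * r ∈ κ.range := by
  obtain ⟨β₁, β₂, hA⟩ := hF.act r (hS.norm r hr) hz
  have sq : ∀ β : MulAut T, Fx (β * β) := fun β => by
    rcases aut_cases β with h | h
    · exact h.mul h
    · exact h.mul h
  exact hS.ker _ (S.mul_mem hr hr) _ _ (hA.mul hA) (sq _) (sq _)

end Cfsg.Agent.WR
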