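import Cfsg.Agent.WR.Bas2

/-! Project WR: small shared lemmas. -/

set_option autoImplicit false
set_option maxRecDepth 100000

namespace Cfsg.Agent.WR

open Subgroup Cfsg.Agent.H78 Cfsg.Agent.H14
open Cfsg.Agent.H42 (SylIn cj)

variable {G : Type*} [Group G] [Finite G]

/-- `(D, D')` is `(E, F)` or `(F, E)` -/
structure Op (D D' : Subgroup T) : Prop where
  sq : ∀ e ∈ D, e * e = 1
  sq' : ∀ e ∈ D', e * e = 1
  nm : ∀ x, ∀ e ∈ D, x * e * x⁻¹ ∈ D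
  nm' : ∀ x, ∀ e ∈ D', x * e * x⁻¹ ∈ D'
  w : ∀ x, x ∈ W ↔ x ∈ D ∧ x ∈ D'
  cm : ∀ e ∈ D, ∀ e' ∈ D, e * e' = e' * e
  cm' : ∀ e ∈ D', ∀ e' ∈ D', e * e' = e' * e
  ef : ∀ e ∈ D, ∀ f ∈ D', e * f = f * e → e ∈ D' ∨ f ∈ D
  ex : ∃ e ∈ D, e ∉ D' ∧ ∃ f ∈ D', ∃ f' ∈ D', f ∉ D ∧ f' ∉ D ∧ f * f' ∉ D
  ex' : ∃ e ∈ D', e ∉ D ∧ ∃ f ∈ D, ∃ f' ∈ D, f ∉ D' ∧ f' ∉ D' ∧ f * f' ∉ D'

theorem opEF : Op E F where
  sq e h := (E_facts e h).1
  sq' e h := (F_facts e h).1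
  nm x e h := (E_facts e h).2.2.1 x
  nm' x e h := (F_facts e h).2.2.1 x
  w := mem_W
  cm e h := (E_facts e h).2.2.2
  cm' e h := (F_facts e h).2.2.2
  ef := comm_EF
  ex := ⟨e1, by decide +kernel, by decide +kernel, f0, by decide +kernel, f1, by decide +kernel⟩
  ex' := ⟨f0, by decide +kernel, by decide +kernel, e1, by decide +kernel, e2, by decide +kernel⟩

theorem Op.symm {D D' : Subgroup T} (h : Op D D') : Op D' D :=
  ⟨h.sq', h.sq, h.nm', h.nm, fun x => (h.w x).trans and_comm, h.cm', h.cm,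
    fun e he f hf k => (h.ef f hf e he k.symm).symm, h.ex', h.ex⟩

variable {c : Cf G} {D : Subgroup T}

omit [Finite G] in
theorem nm_ι (h : ∀ x, ∀ e ∈ D, x * e * x⁻¹ ∈ D) (x : T) : Nm c.ι D (c.ι x) := fun e he =>
  ⟨_, h x e he, by simp only [map_mul, map_inv]⟩

omit [Finite G] in
theorem φ_one {g : G} (h : Commute g c.t) : g * c.t * g⁻¹ = c.t * c.ι 1 := by
  rw [h.eq, map_one, mul_one, mul_inv_cancel_right]

omit [Finite G] in
theorem comm_of_φ {q q' : G} (h : q * c.t * q⁻¹ = q' * c.t * q'⁻¹) : Commute (q⁻¹ * q') c.t := by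
  have : q⁻¹ * q' * c.t = q⁻¹ * (q' * c.t * q'⁻¹) * q' := by group
  rw [Commute, SemiconjBy, this, ← h]
  group

theorem nm_iff {g : G} : Nm c.ι D g ↔ g ∈ normalizer (D.map c.ι : Set G) := by
  refine ⟨fun h => H42.mem_normalizer_of_conj_mem ?_, fun h e he => ?_⟩
  · rintro _ ⟨e, he, rfl⟩
    obtain ⟨e', he', k⟩ := h e he
    exact ⟨e', he', k.symm⟩
  · obtain ⟨e', he', k⟩ := H42.conj_mem_of_mem_normalizer h (mem_map_of_mem c.ι he)
    exact ⟨e', he', k.symm⟩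

theorem t_ne (x y : T) : c.t * c.ι x ≠ c.ι y := fun e =>
  c.not_conj (y * x⁻¹) (by rw [map_mul, map_inv, ← e, mul_inv_cancel_right])

omit [Finite G] in
theorem ι_comm {x y : T} (h : Commute (c.ι x) (c.ι y)) : x * y = y * x :=
  c.inj (by rw [map_mul, map_mul, h.eq])

omit [Finite G] in
theorem comm_ι {x y : T} (h : x * y = y * x) : Commute (c.ι x) (c.ι y) := by
  rw [Commute, SemiconjBy, ← map_mul, h, map_mul]

omit [Finite G] in
theorem tqt {q : G} {e : T} (k : q * c.t * q⁻¹ = c.t * c.ι e) : c.t * q * c.t = c.ι e * q := by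
  rw [mul_assoc, mul_inv_eq_iff_eq_mul.1 k, ← mul_assoc, ← mul_assoc, c.tt, one_mul]

omit [Finite G] in
theorem φ_conj {g q : G} (hg : Commute g c.t) {e e' : T} (k : q * c.t * q⁻¹ = c.t * c.ι e)
    (l : g * c.ι e * g⁻¹ = c.ι e') : g * q * g⁻¹ * c.t * (g * q * g⁻¹)⁻¹ = c.t * c.ι e' := by
  calc _ = g * (q * (g⁻¹ * c.t * g) * q⁻¹) * g⁻¹ := by group
    _ = g * c.t * g⁻¹ * (g * c.ι e * g⁻¹) := by
      rw [hg.inv_left.eq, inv_mul_cancel_right, k]; group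
    _ = _ := by rw [l, hg.eq, mul_inv_cancel_right]

omit [Finite G] in
theorem comm_norm {a d : G} (a2 : a * a = 1) (h : Commute d (a * d * a⁻¹)) :
    Commute (d * (a * d * a⁻¹)) a := by
  have e : a * (d * (a * d * a⁻¹)) * a⁻¹ = a * d * a⁻¹ * (a * a * d * (a * a)⁻¹) := by group
  rw [a2, one_mul, inv_one, mul_one, ← h.eq] at e
  exact (mul_inv_eq_iff_eq_mul.1 e).symm

end Cfsg.Agent.WR
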