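import Cfsg.Agent.WR.Bas2
import Cfsg.Agent.WR.Util
import Cfsg.Agent.WR.Sym
import Cfsg.Agent.WR.JL

/-! Project WR: fusion of the involutions of `T × T`. -/

set_option autoImplicit false
set_option maxRecDepth 100000
set_option linter.unusedSectionVars false

namespace Cfsg.Agent.WR

open Subgroup Cfsg.Agent.H78
open Cfsg.Agent.H42 (SylIn cj)

variable {G : Type*} [Group G] [Finite G] {c : Cf G} {κ : T × T →* G}

namespace Fus

theorem facts : z ∈ F ∧ f0 ∈ F ∧ z ∈ E ∧ f0 ∉ E ∧ z ≠ 1 ∧ f0 ≠ 1 ∧ z * z = 1 ∧ f0 * f0 = 1 := by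
  decide +kernel

theorem fib : ∀ a : T, a ∈ F → ∀ b : T, b ∈ F → a * b = z → (a = 1 ∧ b = z) ∨ (a = z ∧ b = 1) ∨
    (a ≠ 1 ∧ b ≠ 1 ∧ (a ∈ E ↔ b ∈ E)) := by decide +kernel

theorem three : ∀ w : T, w = z ∨ w = w0 ∨ w = z * w0 → w ∈ F ∧ w * f0 ∈ F ∧ w * (w * f0) = f0 ∧
    w ∈ E ∧ w ≠ 1 ∧ w * f0 ∉ E ∧ w * f0 * (w * f0) = 1 := by decide +kernel

theorem three' : z ≠ w0 ∧ z ≠ z * w0 ∧ w0 ≠ z * w0 := by decide +kernel

theorem zmul : ∀ a : T, a * a = 1 → a ≠ z → a * z * (a * z) = 1 ∧ a * z ≠ 1 := by decide +kernel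

theorem split (a b : T) : κ (a, b) = κ (a, 1) * κ (1, b) := by
  rw [← map_mul, Prod.mk_mul_mk, mul_one, one_mul]

theorem m1 (h : Pr c κ) {l : G} (hl : l ∈ c.Λ) {x y : T} (e : l * c.ι x * l⁻¹ = c.ι y) :
    ∃ g ∈ c.X, ∀ b, g * κ (x, b) * g⁻¹ = κ (y, b) := by
  obtain ⟨g, hg, k1, k2⟩ := h.L l hl
  refine ⟨g, hg, fun b => ?_⟩
  rw [split x b, split y b, ← k2 x y e, ← mul_assoc, mul_assoc _ _ g⁻¹, (k1 b).inv_left.symm.eq]
  group

theorem m2 (h : Pr c κ) {l : G} (hl : l ∈ c.Λ) {x y : T} (e : l * c.ι x * l⁻¹ = c.ι y) :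
    ∃ g ∈ c.X, ∀ a, g * κ (a, x) * g⁻¹ = κ (a, y) := by
  obtain ⟨g, hg, k⟩ := m1 h hl e
  exact ⟨_, Sym.tX hg, fun a => by rw [Sym.tconj h, k, Sym.sw' h]⟩

/-- the type of an involution -/
def ty (a : T) : T := if a = 1 then 1 else if a ∈ E then z else f0

theorem ty_conj (c : Cf G) {a : T} (h2 : a * a = 1) : ∃ l ∈ c.Λ, l * c.ι a * l⁻¹ = c.ι (ty a) := by
  unfold ty
  split_ifs with h1 hE
  · exact ⟨1, one_mem _, by simp [h1]⟩
  · exact c.toGF.tr1 hE h1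
  · exact c.toGF.clsO h2 hE

theorem ty_F (a : T) : ty a ∈ F := by
  unfold ty
  split_ifs
  exacts [one_mem _, facts.1, facts.2.1]

theorem red (h : Pr c κ) {a b : T} (ha : a * a = 1) (hb : b * b = 1) :
    ∃ g ∈ c.X, g * κ (a, b) * g⁻¹ = κ (ty a, ty b) := by
  obtain ⟨l, hl, e⟩ := ty_conj c ha
  obtain ⟨l', hl', e'⟩ := ty_conj c hb
  obtain ⟨g, hg, k⟩ := m1 h hl e
  obtain ⟨g', hg', k'⟩ := m2 h hl' e'
  exact ⟨g' * g, mul_mem hg' hg, by rw [← k', ← k]; group⟩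

theorem red' (h : Pr c κ) {a b : T} (ha : a * a = 1) (hb : b * b = 1) :
    IsConj (κ (a, b)) (κ (ty a, ty b)) := by
  obtain ⟨g, -, e⟩ := red h ha hb
  exact isConj_iff.2 ⟨g, e⟩

theorem nt (h : Pr c κ) (p : T × T) : ¬ IsConj c.t (κ p) := fun k => by
  obtain ⟨a, b⟩ := p
  have sq : (a, b) * (a, b) = 1 := h.inj (by
    obtain ⟨g, e⟩ := isConj_iff.1 k
    rw [map_mul, map_one, ← e, conj_mul, c.tt]; group)
  obtain ⟨g, e⟩ := isConj_iff.1 (k.trans (red' h (congrArg Prod.fst sq) (congrArg Prod.snd sq)))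
  have s2 : ∀ x ∈ (F.prod F).map κ, x * x = 1 := by
    rintro _ ⟨p, hp, rfl⟩
    rw [← map_mul, ← map_one κ]
    exact congrArg κ (Prod.ext (F_facts _ hp.1).1 (F_facts _ hp.2).1)
  have := c.elem_le (Bas.sq_cj s2 g⁻¹) (by
    rintro _ ⟨x, hx, rfl⟩
    have cm := Bas.comm_of_sq s2 hx (mem_map_of_mem κ (show (ty a, ty b) ∈ F.prod F from
      ⟨ty_F a, ty_F b⟩))
    rw [← e] at cm
    have := cm.map (MulAut.conj g⁻¹)
    rw [MulAut.conj_apply g⁻¹ (g * c.t * g⁻¹),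
      show g⁻¹ * (g * c.t * g⁻¹) * g⁻¹⁻¹ = c.t by group] at this
    exact this)
  rw [H42.card_cj, card_map_of_injective h.inj, card_prod', card_F] at this
  omega

theorem swp (h : Pr c κ) {g : G} (hg : Commute g c.t) {a b a' b' : T}
    (e : g * κ (a, b) * g⁻¹ = κ (a', b')) : g * κ (b, a) * g⁻¹ = κ (b', a') := by
  rw [← Sym.sw' h a b, ← Sym.sw' h a' b', ← e, ← mul_assoc, ← mul_assoc, hg.eq, mul_assoc _ c.t⁻¹,
    ← mul_inv_rev, hg.eq]
  group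

theorem phi (h : Pr c κ) {g : G} (hg : Commute g c.t) {a b a' b' : T} (ha : a ∈ F) (hb : b ∈ F)
    (ha' : a' ∈ F) (hb' : b' ∈ F) (e : g * κ (a, b) * g⁻¹ = κ (a', b')) :
    g * c.ι (a * b) * g⁻¹ = c.ι (a' * b') := by
  have e1 : κ (a * b, a * b) = κ (a, b) * κ (b, a) := by
    rw [← map_mul, Prod.mk_mul_mk, (F_facts b hb).2.2.2 a ha]
  have e2 : κ (a' * b', a' * b') = κ (a', b') * κ (b', a') := by
    rw [← map_mul, Prod.mk_mul_mk, (F_facts b' hb').2.2.2 a' ha']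
  rw [← h.diag, ← h.diag, e1, e2, ← e, ← swp h hg e, conj_mul]

theorem ff (h : Pr c κ) : IsConj (c.ι z) (κ (f0, f0)) := by
  rw [h.diag]
  exact (isConj_iff.2 ⟨_, c.gz⟩).symm

theorem same (h : Pr c κ) {a b : T} (a2 : a * a = 1) (a1 : a ≠ 1) (b2 : b * b = 1) (b1 : b ≠ 1)
    (e : a ∈ E ↔ b ∈ E) : IsConj (c.ι z) (κ (a, b)) := by
  refine IsConj.trans ?_ (red' h a2 b2).symm
  by_cases hE : a ∈ E
  · simp only [ty, if_neg a1, if_neg b1, if_pos hE, if_pos (e.1 hE)]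
    rw [h.diag]
  · simp only [ty, if_neg a1, if_neg b1, if_neg hE, if_neg (fun k => hE (e.2 k))]
    exact ff h

theorem fibre (h : Pr c κ) {a b : T} (ha : a ∈ F) (hb : b ∈ F) (e : a * b = f0) :
    c.gF * κ (a, b) * c.gF⁻¹ = κ (1, z) ∨ c.gF * κ (a, b) * c.gF⁻¹ = κ (z, 1) ∨
      IsConj (c.ι z) (κ (a, b)) := by
  obtain ⟨a', ha', b', hb', k⟩ := h.FF _ c.gt c.gN a ha b hb
  have := phi h c.gt ha hb ha' hb' k
  rw [e, c.gz] at this
  rcases fib a' ha' b' hb' (c.inj this).symm with ⟨rfl, rfl⟩ | ⟨rfl, rfl⟩ | ⟨k1, k2, k3⟩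
  · exact .inl k
  · exact .inr (.inl k)
  · exact .inr (.inr ((same h (F_facts _ ha').1 k1 (F_facts _ hb').1 k2 k3).trans
      (isConj_iff.2 ⟨_, k⟩).symm))

theorem mix0 (h : Pr c κ) : IsConj (c.ι z) (κ (z, f0)) := by
  by_contra hn
  have key : ∀ w, w = z ∨ w = w0 ∨ w = z * w0 → c.gF * κ (w, w * f0) * c.gF⁻¹ = κ (1, z) ∨
      c.gF * κ (w, w * f0) * c.gF⁻¹ = κ (z, 1) := fun w hw => by
    obtain ⟨k1, k2, k3, k4, k5, k6, k7⟩ := three w hw
    rcases fibre h k1 k2 k3 with e | e | e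
    · exact .inl e
    · exact .inr e
    · have := e.trans (red' h (F_facts _ k1).1 k7)
      have n1 : w * f0 ≠ 1 := fun k => k6 (k ▸ one_mem _)
      simp only [ty, if_neg k5, if_neg n1, if_pos k4, if_neg k6] at this
      exact absurd this hn
  have inj : ∀ {w w' : T} {x : G}, c.gF * κ (w, w * f0) * c.gF⁻¹ = x →
      c.gF * κ (w', w' * f0) * c.gF⁻¹ = x → w = w' := fun e e' =>
    congrArg Prod.fst (h.inj (mul_left_cancel (mul_right_cancel (e.trans e'.symm))))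
  obtain ⟨n1, n2, n3⟩ := three'
  rcases key z (.inl rfl) with e1 | e1 <;> rcases key w0 (.inr (.inl rfl)) with e2 | e2 <;>
    rcases key _ (.inr (.inr rfl)) with e3 | e3 <;>
    first | exact n1 (inj e1 e2) | exact n2 (inj e1 e3) | exact n3 (inj e2 e3)

theorem mix (h : Pr c κ) {a b : T} (a2 : a * a = 1) (a1 : a ≠ 1) (b2 : b * b = 1) (b1 : b ≠ 1) :
    IsConj (c.ι z) (κ (a, b)) := by
  by_cases e : a ∈ E ↔ b ∈ E
  · exact same h a2 a1 b2 b1 e
  refine IsConj.trans ?_ (red' h a2 b2).symm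
  by_cases hE : a ∈ E
  · have hb : b ∉ E := fun k => e (iff_of_true hE k)
    simp only [ty, if_neg a1, if_neg b1, if_pos hE, if_neg hb]
    exact mix0 h
  · have hb : b ∈ E := by_contra fun k => e (iff_of_false hE k)
    simp only [ty, if_neg a1, if_neg b1, if_neg hE, if_pos hb]
    exact (mix0 h).trans (Sym.conj12 h _ _)

/-- an element conjugate to `κ (z, 1)` lies in one of the factors -/
theorem side (h : Pr c κ) (hn : ¬ IsConj (κ (z, 1)) (c.ι z)) {a b : T}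
    (k : IsConj (κ (z, 1)) (κ (a, b))) : a = 1 ∨ b = 1 := by
  have sq : (a, b) * (a, b) = 1 := h.inj (by
    obtain ⟨g, e⟩ := isConj_iff.1 k
    rw [map_mul, map_one, ← e, conj_mul, ← map_mul, Prod.mk_mul_mk, facts.2.2.2.2.2.2.1, mul_one,
      Prod.mk_one_one, map_one]; group)
  by_contra hc
  rw [not_or] at hc
  exact hn (k.trans (mix h (congrArg Prod.fst sq) hc.1 (congrArg Prod.snd sq) hc.2).symm)

theorem one0 (h : Pr c κ) (hn : ¬ IsConj (κ (z, 1)) (c.ι z)) :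
    c.gF * κ (f0, 1) * c.gF⁻¹ = κ (z, 1) := by
  obtain ⟨zF, fF, zE, fE, z1, f1, z2, f2⟩ := facts
  have n' : Nm c.ι F c.gF⁻¹ := nm_iff.2 (inv_mem (nm_iff.1 c.gN))
  obtain ⟨a, ha, b, hb, k⟩ := h.FF _ c.gt.inv_left n' z zF 1 (one_mem _)
  have e := phi h c.gt.inv_left zF (one_mem _) ha hb k
  have e' : a * b = f0 := c.inj (by rw [← e, mul_one, ← c.gz]; group)
  have k' : c.gF * κ (a, b) * c.gF⁻¹ = κ (z, 1) := by rw [← k]; group
  rcases side h hn (isConj_iff.2 ⟨_, k⟩) with rfl | rfl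
  swap
  · rw [mul_one] at e'; exact e' ▸ k'
  exfalso
  rw [one_mul] at e'
  subst e'
  have k2 := swp h c.gt k'
  have c0 : IsConj (κ (z, 1)) (κ (f0, 1)) :=
    (Sym.conj12 h _ _).trans (isConj_iff.2 ⟨_, k2⟩).symm
  have cw : ∀ w : T, w * w = 1 → w ≠ 1 → IsConj (κ (z, 1)) (κ (w, 1)) := fun w w2 w1 => by
    refine IsConj.trans ?_ (red' h w2 (one_mul 1)).symm
    by_cases hE : w ∈ E
    · simp only [ty, if_neg w1, if_pos hE, if_true]
      exact IsConj.refl _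
    · simp only [ty, if_neg w1, if_neg hE, if_true]
      exact c0
  have st : ∀ w ∈ F, ∃ w' ∈ F, c.gF * κ (w, 1) * c.gF⁻¹ = κ (1, w') := fun w hw => by
    by_cases w1 : w = 1
    · exact ⟨1, one_mem _, by rw [w1, Prod.mk_one_one, map_one, mul_one, mul_inv_cancel]⟩
    by_cases wf : w = f0
    · exact ⟨z, zF, wf ▸ k2⟩
    obtain ⟨a', ha', b', hb', l⟩ := h.FF _ c.gt c.gN w hw 1 (one_mem _)
    rcases side h hn ((cw w (F_facts _ hw).1 w1).trans (isConj_iff.2 ⟨_, l⟩)) with rfl | rfl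
    · exact ⟨b', hb', l⟩
    have l2 : c.gF * κ (w * f0, 1) * c.gF⁻¹ = κ (a', z) := by
      rw [split a' z, ← l, ← k2, conj_mul, ← map_mul, Prod.mk_mul_mk, mul_one]
    have n1 : w * f0 ≠ 1 := fun e => wf (by rw [← mul_one w, ← f2, ← mul_assoc, e, one_mul])
    rcases side h hn ((cw _ (F_facts _ (mul_mem hw fF)).1 n1).trans (isConj_iff.2 ⟨_, l2⟩)) with
      rfl | e
    · exact ⟨1, one_mem _, l⟩
    · exact absurd e z1
  have it : ∀ n : ℕ, ∃ w' ∈ F, c.gF ^ (2 * n + 1) * κ (f0, 1) * (c.gF ^ (2 * n + 1))⁻¹ = κ (1, w') := by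
    intro n
    induction n with
    | zero => simpa using st f0 fF
    | succ n ih =>
      obtain ⟨w, hw, e1⟩ := ih
      obtain ⟨w2, hw2, e2⟩ := st w hw
      obtain ⟨w3, hw3, e3⟩ := st w2 hw2
      refine ⟨w3, hw3, ?_⟩
      rw [← e3, ← swp h c.gt e2, ← e1]
      group
  obtain ⟨n, hn'⟩ := c.godd
  obtain ⟨w, -, e1⟩ := it n
  rw [← hn', pow_orderOf_eq_one, one_mul, inv_one, mul_one] at e1
  exact f1 (congrArg Prod.fst (h.inj e1))

theorem one (h : Pr c κ) (hn : ¬ IsConj (κ (z, 1)) (c.ι z)) {a : T} (a2 : a * a = 1) (a1 : a ≠ 1) :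
    ∃ g ∈ c.X, g * κ (a, 1) * g⁻¹ = κ (z, 1) := by
  obtain ⟨g, hg, e⟩ := red h a2 (one_mul 1)
  by_cases hE : a ∈ E
  · simp only [ty, if_neg a1, if_pos hE, if_true] at e
    exact ⟨g, hg, e⟩
  · simp only [ty, if_neg a1, if_neg hE, if_true] at e
    exact ⟨c.gF * g, mul_mem c.gX hg, by rw [← one0 h hn, ← e]; group⟩

theorem act (h : Pr c κ) (hn : ¬ IsConj (κ (z, 1)) (c.ι z)) {r : G}
    (hr : ∀ p, r * κ p * r⁻¹ ∈ κ.range) (hz : Commute r (κ (z, 1))) : ∃ β₁ β₂, Ac κ r β₁ β₂ := by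
  obtain ⟨-, -, -, -, z1, -, -, -⟩ := facts
  choose f hf using hr
  let θ0 : T × T →* T × T := MonoidHom.mk' f fun p q => h.inj (by
    rw [map_mul, hf, hf, hf, map_mul, conj_mul])
  have i0 : Function.Injective θ0 := fun p q e => h.inj (mul_left_cancel (mul_right_cancel
    ((hf p).symm.trans ((congrArg κ e).trans (hf q)))))
  let θ : MulAut (T × T) := MulEquiv.ofBijective θ0 (Finite.injective_iff_bijective.1 i0)
  have hθ : ∀ p, κ (θ0 p) = r * κ p * r⁻¹ := hf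
  have t1 : θ0 (z, 1) = (z, 1) := h.inj (by rw [hθ, hz.eq, mul_inv_cancel_right])
  have t3 : θ0 (z, z) = (z, z) := aut_zz θ
  have t2 : θ0 (1, z) = (1, z) := by
    have e : ((z, z) : T × T) = (z, 1) * (1, z) := by simp
    rw [e, map_mul, t1] at t3
    exact mul_left_cancel t3
  have c1 : ∀ a : T, a * a = 1 → a ≠ 1 → (θ0 (a, 1)).1 = 1 ∨ (θ0 (a, 1)).2 = 1 := fun a a2 a1 => by
    obtain ⟨g, -, e⟩ := one h hn a2 a1
    exact side h hn ((isConj_iff.2 ⟨_, e⟩).symm.trans (isConj_iff.2 ⟨r, (hθ _).symm⟩))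
  have c2 : ∀ a : T, a * a = 1 → a ≠ 1 → (θ0 (1, a)).1 = 1 ∨ (θ0 (1, a)).2 = 1 := fun a a2 a1 => by
    obtain ⟨g, -, e⟩ := one h hn a2 a1
    exact side h hn (((isConj_iff.2 ⟨_, e⟩).symm.trans (Sym.conj12 h _ _)).trans
      (isConj_iff.2 ⟨r, (hθ _).symm⟩))
  have k1 : ∀ a, (θ0 (a, 1)).2 = 1 := gen_inv
    (K := ((MonoidHom.snd T T).comp (θ0.comp (MonoidHom.inl T T))).ker) fun a a2 => by
      change (θ0 (a, 1)).2 = 1
      by_cases a1 : a = 1
      · rw [a1, Prod.mk_one_one, map_one]; rfl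
      by_cases az : a = z
      · rw [az, t1]
      have e : θ0 (a * z, 1) = θ0 (a, 1) * (z, 1) := by rw [← t1, ← map_mul]; simp
      have l := c1 _ (zmul a a2 az).1 (zmul a a2 az).2
      rw [e, Prod.fst_mul, Prod.snd_mul, mul_one] at l
      rcases c1 a a2 a1 with l' | l'
      · rw [l', one_mul] at l
        exact l.resolve_left z1
      · exact l'
  have k2 : ∀ a, (θ0 (1, a)).1 = 1 := gen_inv
    (K := ((MonoidHom.fst T T).comp (θ0.comp (MonoidHom.inr T T))).ker) fun a a2 => by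
      change (θ0 (1, a)).1 = 1
      by_cases a1 : a = 1
      · rw [a1, Prod.mk_one_one, map_one]; rfl
      by_cases az : a = z
      · rw [az, t2]
      have e : θ0 (1, a * z) = θ0 (1, a) * (1, z) := by rw [← t2, ← map_mul]; simp
      have l := c2 _ (zmul a a2 az).1 (zmul a a2 az).2
      rw [e, Prod.fst_mul, Prod.snd_mul, mul_one] at l
      rcases c2 a a2 a1 with l' | l'
      · exact l'
      · rw [l', one_mul] at l
        exact l.resolve_right z1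
  let b1 : T →* T := (MonoidHom.fst T T).comp (θ0.comp (MonoidHom.inl T T))
  let b2 : T →* T := (MonoidHom.snd T T).comp (θ0.comp (MonoidHom.inr T T))
  have e1 : ∀ a, θ0 (a, 1) = (b1 a, 1) := fun a => Prod.ext rfl (k1 a)
  have e2 : ∀ a, θ0 (1, a) = (1, b2 a) := fun a => Prod.ext (k2 a) rfl
  have i1 : Function.Injective b1 := fun a a' e =>
    congrArg Prod.fst (i0 ((e1 a).trans (e ▸ (e1 a').symm)))
  have i2 : Function.Injective b2 := fun a a' e =>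
    congrArg Prod.snd (i0 ((e2 a).trans (e ▸ (e2 a').symm)))
  refine ⟨MulEquiv.ofBijective b1 (Finite.injective_iff_bijective.1 i1),
    MulEquiv.ofBijective b2 (Finite.injective_iff_bijective.1 i2), fun a b => ?_⟩
  change _ = κ (b1 a, b2 b)
  rw [split a b, split (b1 a), ← e1, ← e2, hθ, hθ, conj_mul]

end Fus

theorem Pr.fu (h : Pr c κ) (hn : ¬ IsConj (κ (z, 1)) (c.ι z)) : Fu c κ where
  nt := Fus.nt h
  one _ a2 a1 := Fus.one h hn a2 a1
  mix _ _ a2 a1 b2 b1 := Fus.mix h a2 a1 b2 b1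
  act _ hr hz := Fus.act h hn hr hz

end Cfsg.Agent.WR
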