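import Cfsg.Agent.WR.Ty
import Cfsg.Agent.DIM4.SylA

/-! Project WR: the Sylow 2-subgroup of `X`. -/

set_option autoImplicit false

namespace Cfsg.Agent.WR

open Subgroup Cfsg.Agent.H78
open Cfsg.Agent.H42 (SylIn cj)

variable {G : Type*} [Group G] [Finite G] {c : Cf G} {κ : T × T →* G} {S : Subgroup G}

omit [Finite G] in
theorem ou_tt (c : Cf G) (x : G) : c.t * (c.t * x) = x := by rw [← mul_assoc, c.tt, one_mul]

theorem ou_tr {L P Q : Subgroup G} (hL : ⁅L, L⁆ = L) (hP : SylIn 2 P L)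
    (hQ : ∀ a ∈ P, ∀ b ∈ P, a * b * a⁻¹ * b⁻¹ ∈ Q) {u : G} (hu : u ∈ P) (u2 : u * u = 1)
    (hc : ∀ g ∈ L, g * u * g⁻¹ ∈ P → u * (g * u * g⁻¹) ∈ Q) : u ∈ Q :=
  DIM4.Th.transfer_in hL (H92.sylIn_of_not_dvd_relIndex hP.le hP.isP hP.ndvd) hQ hu u2 hc

theorem ou_th {L P Q : Subgroup G} (hL : ⁅L, L⁆ = L) (hP : SylIn 2 P L)
    (hi : ∀ x ∈ P, ∀ y ∈ P, x ∉ Q → y ∉ Q → x * y ∈ Q) {u : G} (hu : u ∈ P) (u2 : u * u = 1) :
    ∃ g : G, g * u * g⁻¹ ∈ P ∧ g * u * g⁻¹ ∈ Q := by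
  by_contra! hn
  have h1 : u ∉ Q := by simpa using hn 1 (by simpa using hu)
  refine h1 (ou_tr hL hP (fun a ha b hb => ?_) hu u2 fun g _ hg => hi _ hu _ hg h1 (hn g hg))
  rw [show a * b * a⁻¹ * b⁻¹ = a * b * (b * a)⁻¹ by group]
  by_cases h2 : a ∈ Q <;> by_cases h3 : b ∈ Q
  · exact Q.mul_mem (Q.mul_mem h2 h3) (Q.inv_mem (Q.mul_mem h3 h2))
  · exact hi _ (P.mul_mem ha hb) _ (P.inv_mem (P.mul_mem hb ha)) (by rwa [Q.mul_mem_cancel_left h2])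
      (by rwa [inv_mem_iff, Q.mul_mem_cancel_right h2])
  · exact hi _ (P.mul_mem ha hb) _ (P.inv_mem (P.mul_mem hb ha)) (by rwa [Q.mul_mem_cancel_right h3])
      (by rwa [inv_mem_iff, Q.mul_mem_cancel_left h3])
  · exact Q.mul_mem (hi a ha b hb h2 h3) (Q.inv_mem (hi b hb a ha h3 h2))

theorem Pr.ou_le (h : Pr c κ) (hF : Fu c κ) : κ.range ≤ c.X := by
  have h1 : ∀ a, κ (a, 1) ∈ c.X := gen_inv (K := c.X.comap (κ.comp (MonoidHom.inl T T))) fun a a2 => by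
    change κ (a, 1) ∈ c.X
    by_cases a1 : a = 1
    · rw [a1]; exact (map_one κ).symm ▸ c.X.one_mem
    obtain ⟨g, -, e⟩ := hF.one a a2 a1
    obtain ⟨q, hq⟩ := ty_z.2.2
    have := c.Xn.conj_mem _ (c.sq_X (κ (q, 1))) g⁻¹
    rw [ty_mul, hq, mul_one, ← e] at this
    simpa [mul_assoc] using this
  rintro _ ⟨⟨a, b⟩, rfl⟩
  have := c.X.mul_mem (h1 a) (Sym.tX (h1 b))
  rwa [h.sw, ty_mul, mul_one, one_mul] at this

theorem Pr.ou_sq (h : Pr c κ) (hS : Sy c κ S) (hF : Fu c κ) {g : G} {q : T} (hq : q * q = z)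
    (hc : Commute (g * κ (q, 1) * g⁻¹) c.t) : False := by
  have h1 := c.H_sq hc
  rw [conj_mul, ty_mul, hq, mul_one] at h1
  have h2 : IsConj (κ (z, 1)) (g * κ (z, 1) * g⁻¹) := isConj_iff.2 ⟨g, rfl⟩
  rcases c.invH h1 (by rw [conj_mul, ty_mul, ty_z.1, mul_one, Prod.mk_one_one, map_one]; simp)
    (fun e => ty_z.2.1 (congrArg Prod.fst (h.inj ((conj_eq_one_iff.1 e).trans (map_one κ).symm)))) with
    h3 | h3
  · exact hF.nt _ (h3.trans h2.symm)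
  · exact hS.nconj (h2.trans h3.symm)

theorem Pr.ou_nt (h : Pr c κ) (hS : Sy c κ S) (hF : Fu c κ) {u : G} (hu : u ∈ S)
    (hz : Commute u (κ (z, 1))) (hc : IsConj u c.t) : False := by
  obtain ⟨g, e⟩ := isConj_iff.1 hc
  have u2 : u * u = 1 := by rw [← conj_eq_one_iff (a := g), ← conj_mul, e, c.tt]
  obtain ⟨β₁, β₂, a⟩ := hF.act u (hS.norm u hu) hz
  obtain ⟨b1, b2⟩ := a.sq h u2
  rcases aut_cases β₁ with f1 | f1
  · rcases aut_cases β₂ with f2 | f2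
    · obtain ⟨p, rfl⟩ := hS.ker u hu _ _ a f1 f2
      exact hF.nt p hc.symm
    · obtain ⟨⟨q, q1, q2⟩, -⟩ := lemO f2 b2
      refine h.swap.ou_sq (hS.swap h) (hF.swap h hS) (g := g) q2 ?_
      have := a 1 q
      rw [q1, map_one] at this
      exact e ▸ (Commute.conj (mul_inv_eq_iff_eq_mul.1 this) g).symm
  · obtain ⟨⟨q, q1, q2⟩, -⟩ := lemO f1 b1
    refine h.ou_sq hS hF (g := g) q2 ?_
    have := a q 1
    rw [q1, map_one] at this
    exact e ▸ (Commute.conj (mul_inv_eq_iff_eq_mul.1 this) g).symm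

theorem Pr.ou_tX (h : Pr c κ) (hS : Sy c κ S) (hF : Fu c κ) : c.t ∉ c.X := fun ht => by
  have hX : c.X = ⊤ := eq_top_iff.2 fun g _ => (c.Xi g).elim id (c.X.mul_mem_cancel_right ht).1
  obtain ⟨g, h1, h2⟩ := ou_th c.Xp (hX ▸ hS.syl) (Q := centralizer {κ (z, 1)}) (fun x hx y hy h1 h2 =>
    mem_centralizer_singleton_iff.2 (hS.mul_out hx hy (mt mem_centralizer_singleton_iff.2 h1)
      (mt mem_centralizer_singleton_iff.2 h2))) hS.tS c.tt
  exact h.ou_nt hS hF h1 (mem_centralizer_singleton_iff.1 h2) (isConj_iff.2 ⟨g, rfl⟩).symm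

theorem Pr.ou_rho (h : Pr c κ) (hS : Sy c κ S) (hF : Fu c κ) {u : G} (u2 : u * u = 1)
    (ut : Commute u c.t) (uH : u ∉ c.H) (p : T × T) : ¬ IsConj u (κ p) := fun hc => by
  obtain ⟨a, b⟩ := p
  obtain ⟨g, e⟩ := isConj_iff.1 hc
  have p2 : (a * a, b * b) = 1 := h.inj (by
    rw [← ty_mul, ← e, conj_mul, u2, mul_one, mul_inv_cancel, map_one])
  have p1 : ¬ (a = 1 ∧ b = 1) := by
    rintro ⟨rfl, rfl⟩
    rw [Prod.mk_one_one, map_one, conj_eq_one_iff] at e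
    exact uH (e ▸ c.H.one_mem)
  have a2 : a * a = 1 := congrArg Prod.fst p2
  have b2 : b * b = 1 := congrArg Prod.snd p2
  have tw : ∀ g : G, IsPGroup 2 (zpowers (g * c.t * g⁻¹)) := fun g =>
    ty_two (by rw [conj_mul, c.tt, mul_one, mul_inv_cancel])
  have k1 : ¬ IsConj u (κ (z, 1)) := fun hc => by
    obtain ⟨g, e⟩ := isConj_iff.1 hc
    obtain ⟨m, -, hm⟩ := hS.sylz.exists_conj (tw g)
      (zpowers_le_of_mem (mem_centralizer_singleton_iff.2 (e ▸ (ut.conj g).symm.eq)))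
    obtain ⟨h1, h2⟩ := hm _ (mem_zpowers _)
    exact h.ou_nt hS hF h1 (mem_centralizer_singleton_iff.1 h2)
      ((isConj_iff.2 ⟨g, rfl⟩).trans (isConj_iff.2 ⟨m, rfl⟩)).symm
  by_cases b1 : b = 1
  · obtain ⟨g', -, e'⟩ := hF.one a a2 fun a1 => p1 ⟨a1, b1⟩
    subst b1
    exact k1 (hc.trans (isConj_iff.2 ⟨g', e'⟩))
  by_cases a1 : a = 1
  · obtain ⟨g', -, e'⟩ := hF.one b b2 b1
    subst a1
    exact k1 ((hc.trans (Sym.conj12 h 1 b)).trans (isConj_iff.2 ⟨g', e'⟩))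
  obtain ⟨g, e⟩ := isConj_iff.1 (hc.trans (hF.mix a b a2 a1 b2 b1).symm)
  obtain ⟨m, hm, hm'⟩ := (hS.syl.of_le (K := centralizer {c.ι z}) (fun r hr =>
    mem_centralizer_singleton_iff.2 (hS.cz r hr)) le_top).exists_conj (tw g)
      (zpowers_le_of_mem (mem_centralizer_singleton_iff.2 (e ▸ (ut.conj g).symm.eq)))
  have h1 := hm' _ (mem_zpowers _)
  have e' : m * g * u * (m * g)⁻¹ = c.ι z := by
    rw [← mul_inv_eq_iff_eq_mul.2 (mem_centralizer_singleton_iff.1 hm), ← e]; group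
  rw [show m * (g * c.t * g⁻¹) * m⁻¹ = m * g * c.t * (m * g)⁻¹ by group] at h1
  generalize m * g = n at h1 e'
  obtain ⟨β₁, β₂, ac⟩ := hF.act _ (hS.norm _ (S.mul_mem h1 hS.tS)) ((hS.half _ h1).resolve_left
    fun h2 => h.ou_nt hS hF h1 h2 (isConj_iff.2 ⟨n, rfl⟩).symm)
  have e1 : β₁ * β₂ = 1 := (Ac.unique h (ac.mul (Ac.t h ac)) (γ₁ := 1) (γ₂ := 1) fun a b => by
    have : n * c.t * n⁻¹ * c.t * (c.t * (n * c.t * n⁻¹ * c.t) * c.t) = 1 := by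
      simp only [mul_assoc, ou_tt, c.tt, inv_mul_cancel_left, mul_one, mul_inv_cancel]
    rw [this]; simp).1
  obtain ⟨q, hq⟩ := ty_z.2.2
  have e2 : Commute (n⁻¹ * κ (q, β₂ q) * n) c.t := by
    have e3 := ac (β₂ q) q
    rw [← MulAut.mul_apply, e1, MulAut.one_apply, ← h.sw q (β₂ q)] at e3
    calc n⁻¹ * κ (q, β₂ q) * n * c.t = n⁻¹ * κ (q, β₂ q) * (n * c.t * n⁻¹ * c.t) * c.t⁻¹ * n := by group
      _ = n⁻¹ * (n * c.t * n⁻¹ * c.t * (c.t * κ (q, β₂ q) * c.t)) * c.t⁻¹ * n := by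
        rw [mul_inv_eq_iff_eq_mul.1 e3]; group
      _ = c.t * n⁻¹ * (c.t * c.t) * κ (q, β₂ q) * n := by group
      _ = _ := by rw [c.tt]; group
  have := c.H_sq e2
  rw [show n⁻¹ * κ (q, β₂ q) * n * (n⁻¹ * κ (q, β₂ q) * n) = n⁻¹ * (κ (q, β₂ q) * κ (q, β₂ q)) * n by group,
    ty_mul, ← map_mul, hq, aut_z, h.diag, ← e'] at this
  exact uH (by simpa [mul_assoc] using this)

theorem Pr.ou_ex (h : Pr c κ) (hS : Sy c κ S) (hF : Fu c κ) {r : G} (hr : r ∈ S)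
    (hz : Commute r (κ (z, 1))) (hn : r ∉ κ.range) :
    ∃ ρ ∈ S, ρ * ρ = 1 ∧ Commute ρ c.t ∧ ρ ∉ c.H ∧ Ty κ ρ true true := by
  have tS : ∀ {x}, x ∈ S → c.t * x * c.t ∈ S := fun hx => S.mul_mem (S.mul_mem hS.tS hx) hS.tS
  obtain ⟨x, hx, tx⟩ : ∃ x ∈ S, Ty κ x true true := by
    obtain ⟨i, j, ty⟩ := hS.ty hF hr hz
    cases i <;> cases j
    exacts [(hn (hS.ty_ker hr ty)).elim, ⟨_, S.mul_mem hr (tS hr), ty.mul (ty.t h)⟩,
      ⟨_, S.mul_mem hr (tS hr), ty.mul (ty.t h)⟩, ⟨r, hr, ty⟩]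
  obtain ⟨⟨a, b⟩, e⟩ := hS.ty_ker (S.mul_mem (tS hx) (S.inv_mem hx)) ((tx.t h).mul tx.inv)
  have e1 : (b * a, a * b) = 1 := h.inj (by
    rw [← ty_mul, ← h.sw a b, e, map_one]
    simp only [mul_assoc, ou_tt, inv_mul_cancel_left, mul_inv_cancel])
  have e2 : Commute (κ (a, 1) * x) c.t := by
    have : κ (1, a) * κ (a, b) = κ (a, 1) := by
      rw [ty_mul, one_mul, show a * b = 1 from congrArg Prod.snd e1]
    calc κ (a, 1) * x * c.t = κ (1, a) * κ (a, b) * x * c.t := by rw [this]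
      _ = c.t * κ (a, 1) * (c.t * c.t) * x * (c.t * c.t) := by rw [← h.sw a 1, e]; group
      _ = _ := by rw [c.tt]; group
  have hx' : κ (a, 1) * x ∈ S := S.mul_mem (hS.le ⟨_, rfl⟩) hx
  have tx' : Ty κ (κ (a, 1) * x) true true := (ty_range ⟨_, rfl⟩).mul tx
  obtain ⟨ρ, ⟨h1, h2⟩, h3, h4⟩ := c.exists_rho (Q := S ⊓ centralizer {c.t}) (hS.syl.isP.to_le inf_le_left)
    (fun q hq => mem_centralizer_singleton_iff.1 hq.2) ⟨hS.tS, mem_centralizer_singleton_iff.2 rfl⟩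
    (fun x => ⟨hS.le (h.ι_range x), mem_centralizer_singleton_iff.2 (c.ιt x)⟩) fun le => by
      obtain ⟨y, e | e⟩ := hS.mem_H h hx' (le ⟨hx', mem_centralizer_singleton_iff.2 e2⟩)
      · exact absurd (tx'.uniq h (ty_range (e ▸ h.ι_range y))).1 (by decide)
      · have := tx'.comm.mul_left (ty_range (h.ι_range y)).comm.inv_left
        rw [e, mul_inv_cancel_right] at this
        exact h.t_out this
  have h2' : Commute ρ c.t := mem_centralizer_singleton_iff.1 h2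
  have ρ2 : ρ * ρ = 1 := h4.resolve_right fun e => h.t_out (by
    by_cases h5 : Commute ρ (κ (z, 1))
    exacts [e ▸ h5.mul_left h5, e ▸ hS.mul_out h1 h1 h5 h5])
  have key : ∀ ρ ∈ S, Commute ρ c.t → ρ ∉ c.H → Commute ρ (κ (z, 1)) → Ty κ ρ true true := by
    intro ρ h1 h2 h3 h5
    obtain ⟨i, j, ty⟩ := hS.ty hF h1 h5
    have ty' := ty.t h
    rw [← h2.eq, mul_assoc, c.tt, mul_one] at ty'
    obtain ⟨rfl, -⟩ := ty.uniq h ty'
    cases i
    · obtain ⟨⟨a, b⟩, rfl⟩ := hS.ty_ker h1 ty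
      have := h.sw a b
      rw [← h2.eq, mul_assoc, c.tt, mul_one] at this
      obtain rfl : a = b := congrArg Prod.fst (h.inj this)
      exact (h3 (h.diag a ▸ c.LH (c.toGF.ι_mem a))).elim
    · exact ty
  rcases hS.half ρ h1 with h5 | h5
  · exact ⟨ρ, h1, ρ2, h2', h3, key ρ h1 h2' h3 h5⟩
  · have h6 : ρ * c.t ∉ c.H := by rwa [c.H.mul_mem_cancel_right c.tH]
    have h7 := h2'.mul_left (Commute.refl c.t)
    exact ⟨_, S.mul_mem h1 hS.tS, by rw [h2'.symm.mul_mul_mul_comm, ρ2, c.tt, mul_one], h7, h6,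
      key _ (S.mul_mem h1 hS.tS) h7 h6 h5⟩

theorem Pr.ou_cz (h : Pr c κ) (hS : Sy c κ S) (hF : Fu c κ) {r : G} (hr : r ∈ S) (hX : r ∈ c.X) :
    Commute r (κ (z, 1)) := by
  by_contra hz
  have le := h.ou_le hF
  have tX := h.ou_tX hS hF
  have tS : ∀ {x}, x ∈ S → c.t * x * c.t ∈ S := fun hx => S.mul_mem (S.mul_mem hS.tS hx) hS.tS
  have nX : ∀ {x}, x ∈ c.X → x * c.t ∉ c.X := fun hx e => tX ((c.X.mul_mem_cancel_left hx).1 e)
  have kX : ∀ {x y i j}, x ∈ S → y ∈ S → Ty κ x i j → Ty κ y i j → y ∈ c.X → x ∈ c.X :=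
    fun hx hy tx ty hX => (c.X.mul_mem_cancel_right hX).1 (le (hS.ty_ker (S.mul_mem hx hy)
      (by simpa using tx.mul ty)))
  have hrt := S.mul_mem hr hS.tS
  obtain ⟨ρ, h1, ρ2, h2, h3, ty⟩ := h.ou_ex hS hF hrt ((hS.half r hr).resolve_left hz)
    fun e => nX hX (le e)
  have hP : SylIn 2 (S ⊓ c.X) c.X :=
    hS.syl.inf_normal le_top (by have := c.Xn; rw [normalizer_eq_top])
  have nm : ∀ {v i j}, v ∈ S → v ∈ c.X → Ty κ v i j → i = j := by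
    intro v i j hv hvX tv
    by_contra hij
    obtain ⟨i', j', ty⟩ := hS.ty hF hrt ((hS.half r hr).resolve_left hz)
    have t1 := tv.t h
    have t2 := tv.mul t1
    have x1 := Sym.tX hvX
    refine nX hX ?_
    cases i <;> cases j <;> cases i' <;> cases j' <;> first
      | exact (hij rfl).elim | exact le (hS.ty_ker hrt ty) | exact kX hrt hv ty tv hvX
      | exact kX hrt (tS hv) ty t1 x1 | exact kX hrt (S.mul_mem hv (tS hv)) ty t2 (c.X.mul_mem hvX x1)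
  have ty2 : ∀ {v}, v ∈ S → v ∈ c.X → Commute v (κ (z, 1)) → ∃ i, Ty κ v i i := fun hv hvX hc => by
    obtain ⟨i, j, tv⟩ := hS.ty hF hv hc
    obtain rfl := nm hv hvX tv
    exact ⟨i, tv⟩
  rcases c.Xi ρ with ρX | ρX
  · have cm : ∀ a ∈ S ⊓ c.X, ∀ b ∈ S ⊓ c.X, Commute a (κ (z, 1)) → a * b * a⁻¹ * b⁻¹ ∈ κ.range := by
      intro a ha b hb hc
      obtain ⟨i, ta⟩ := ty2 ha.1 ha.2 hc
      refine hS.ty_ker (S.mul_mem (S.mul_mem (S.mul_mem ha.1 hb.1) (S.inv_mem ha.1)) (S.inv_mem hb.1)) ?_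
      rcases hS.half b hb.1 with h5 | h5
      · obtain ⟨j, j', tb⟩ := hS.ty hF hb.1 h5
        have := ((ta.mul tb).mul ta.inv).mul tb.inv
        cases i <;> cases j <;> cases j' <;> exact this
      · obtain ⟨j, j', tb⟩ := hS.ty hF (S.mul_mem hb.1 hS.tS) h5
        have := ((ta.mul tb).mul (ta.inv.t h)).mul tb.inv
        rw [show a * (b * c.t) * (c.t * a⁻¹ * c.t) * (b * c.t)⁻¹ =
          a * b * (c.t * c.t) * a⁻¹ * b⁻¹ by group, c.tt, mul_one] at this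
        cases i <;> cases j <;> cases j' <;> exact this
    obtain ⟨p, e⟩ := ou_tr c.Xp hP (Q := κ.range) (fun a ha b hb => by
      by_cases h5 : Commute a (κ (z, 1))
      · exact cm a ha b hb h5
      by_cases h6 : Commute b (κ (z, 1))
      · have := κ.range.inv_mem (cm b hb a ha h6)
        simpa [mul_assoc] using this
      obtain ⟨p, e⟩ := cm _ (mul_mem (inv_mem hb) ha) b hb
        (hS.mul_out (S.inv_mem hb.1) ha.1 (fun h => h6 (by simpa using h.inv_left)) h5)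
      have := hS.norm b hb.1 p
      rw [e] at this
      simpa [mul_assoc] using this) ⟨h1, ρX⟩ ρ2 fun g _ hg => by
        have v2 : g * ρ * g⁻¹ * (g * ρ * g⁻¹) = 1 := by rw [conj_mul, ρ2, mul_one, mul_inv_cancel]
        have nr : g * ρ * g⁻¹ ∉ κ.range := fun ⟨p, e⟩ =>
          h.ou_rho hS hF ρ2 h2 h3 p (isConj_iff.2 ⟨g, e.symm⟩)
        generalize g * ρ * g⁻¹ = v at hg v2 nr
        rcases hS.half v hg.1 with h5 | h5
        · obtain ⟨i, tv⟩ := ty2 hg.1 hg.2 h5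
          cases i
          exacts [(nr (hS.ty_ker hg.1 tv)).elim, hS.ty_ker (S.mul_mem h1 hg.1) (ty.mul tv)]
        · have hvt := S.mul_mem hg.1 hS.tS
          obtain ⟨i, j, tv⟩ := hS.ty hF hvt h5
          have t1 := tv.mul (tv.t h)
          rw [show v * c.t * (c.t * (v * c.t) * c.t) = v * (c.t * c.t) * v * (c.t * c.t) by group, c.tt,
            mul_one, mul_one, v2] at t1
          have t2 := (t1.uniq h (ty_range (one_mem _))).1
          refine (nX hg.2 ?_).elim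
          cases i <;> cases j <;> first
            | exact le (hS.ty_ker hvt tv) | exact kX hvt h1 tv ty ρX | exact absurd t2 (by decide)
    exact h.ou_rho hS hF ρ2 h2 h3 p (e ▸ IsConj.refl _)
  · have k : ∀ {v}, v ∈ S ⊓ c.X → Commute v (κ (z, 1)) → v ∈ κ.range := fun hv hc => by
      obtain ⟨i, tv⟩ := ty2 hv.1 hv.2 hc
      cases i
      exacts [hS.ty_ker hv.1 tv, (nX (kX h1 hv.1 ty tv hv.2) ρX).elim]
    have u2 : ρ * c.t * (ρ * c.t) = 1 := by rw [h2.symm.mul_mul_mul_comm, ρ2, c.tt, mul_one]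
    obtain ⟨g, -, p, e⟩ := ou_th c.Xp hP (Q := κ.range) (fun x hx y hy h5 h6 => k (mul_mem hx hy)
      (hS.mul_out hx.1 hy.1 (mt (k hx) h5) (mt (k hy) h6))) ⟨S.mul_mem h1 hS.tS, ρX⟩ u2
    exact h.ou_rho hS hF u2 (h2.mul_left (Commute.refl _)) (by rwa [c.H.mul_mem_cancel_right c.tH]) p
      (isConj_iff.2 ⟨g, e.symm⟩)

theorem Pr.ou (h : Pr c κ) (hS : Sy c κ S) (hF : Fu c κ) : Ou c κ S := by
  refine ⟨h.ou_le hF, h.ou_tX hS hF, fun r => h.ou_cz hS hF, or_iff_not_imp_left.2 fun hn => ?_,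
    fun u _ u2 ut uH => h.ou_rho hS hF u2 ut uH⟩
  obtain ⟨r, hr, hr'⟩ := SetLike.not_le_iff_exists.1 hn
  obtain ⟨ρ, h1, ρ2, -, -, ty⟩ := h.ou_ex hS hF hr.1 (h.ou_cz hS hF hr.1 hr.2) hr'
  refine ⟨ρ, h1, (c.Xi ρ).resolve_right fun e => h.t_out ?_, ρ2, ty⟩
  simpa using ty.comm.inv_left.mul_left (h.ou_cz hS hF (S.mul_mem h1 hS.tS) e)

end Cfsg.Agent.WR
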