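import Cfsg.Agent.WR.Ty

/-! Project WR: the class of `κ (z, 1)` meets `S` inside `T × T`. -/

set_option autoImplicit false

namespace Cfsg.Agent.WR

open Subgroup Cfsg.Agent.H78
open Cfsg.Agent.H42 (SylIn cj)

variable {G : Type*} [Group G] [Finite G] {c : Cf G} {κ : T × T →* G} {S : Subgroup G}

/-- conjugacy under `X` -/
def OzX (c : Cf G) (a b : G) : Prop := ∃ g ∈ c.X, g * a * g⁻¹ = b

section
omit [Finite G]

theorem OzX.symm {a b : G} (h : OzX c a b) : OzX c b a :=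
  let ⟨g, hg, e⟩ := h
  ⟨g⁻¹, c.X.inv_mem hg, by rw [← e]; group⟩

theorem OzX.trans {a b d : G} (h : OzX c a b) (h' : OzX c b d) : OzX c a d :=
  let ⟨g, hg, e⟩ := h
  let ⟨g', hg', e'⟩ := h'
  ⟨g' * g, c.X.mul_mem hg' hg, by rw [← e', ← e]; group⟩

theorem OzX.conj {a b : G} (h : OzX c a b) : IsConj a b :=
  let ⟨g, _, e⟩ := h
  isConj_iff.2 ⟨g, e⟩

theorem OzX.sq {a : G} {p : T × T} (h : OzX c a (κ p)) (p2 : p * p = 1) : a * a = 1 := by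
  obtain ⟨g, -, e⟩ := h
  rw [← conj_eq_one_iff (a := g), ← conj_mul, e, ← map_mul, p2, map_one]

theorem OzX.mem {a b : G} (h : OzX c a b) (hb : b ∈ c.X) : a ∈ c.X := by
  obtain ⟨g, hg, rfl⟩ := h
  exact (c.X.mul_mem_cancel_left hg).1 ((c.X.mul_mem_cancel_right (c.X.inv_mem hg)).1 hb)

theorem oz_z1 : ((z, 1) : T × T) * (z, 1) = 1 := Prod.ext ty_z.1 (mul_one _)

theorem oz_z2 : ((1, z) : T × T) * (1, z) = 1 := Prod.ext (mul_one _) ty_z.1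

theorem oz_two {x : G} {n : ℕ} (hn : x ^ 2 ^ n = 1) : IsPGroup 2 (zpowers x) := by
  rintro ⟨y, k, rfl⟩
  refine ⟨n, Subtype.ext ?_⟩
  change (x ^ k) ^ 2 ^ n = 1
  rw [← zpow_natCast, ← zpow_mul, mul_comm, zpow_mul, zpow_natCast, hn, one_zpow]

theorem oz_shift {r : G} {β₁ β₂ : MulAut T} (a : Ac κ r β₁ β₂) (hX : κ.range ≤ c.X) {x u : T}
    (e : β₁ x = x * u) : OzX c r (κ (u, 1) * r) := by
  refine ⟨(κ (x, 1))⁻¹, c.X.inv_mem (hX ⟨_, rfl⟩), ?_⟩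
  have := a x 1
  rw [e, map_one, ← mul_one (1 : T), ← ty_mul, mul_one] at this
  calc (κ (x, 1))⁻¹ * r * (κ (x, 1))⁻¹⁻¹ = (κ (x, 1))⁻¹ * (r * κ (x, 1) * r⁻¹) * r := by group
    _ = _ := by rw [this]; group

end

/-- the hypotheses -/
structure OzC (c : Cf G) (κ : T × T →* G) (S : Subgroup G) : Prop where
  pr : Pr c κ
  sy : Sy c κ S
  fu : Fu c κ
  ou : Ou c κ S

namespace OzC

theorem swap (h : OzC c κ S) : OzC c (flp κ) S :=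
  ⟨h.pr.swap, h.sy.swap h.pr, h.fu.swap h.pr h.sy, h.ou.swap h.pr h.sy⟩

theorem syl (h : OzC c κ S) : SylIn 2 (S ⊓ c.X) c.X :=
  h.sy.syl.inf_normal le_top (by have := c.Xn; rw [normalizer_eq_top])

theorem ext (h : OzC c κ S) {r : G} (hr : OzX c r (κ (z, 1))) {Q : Subgroup G} (hQ : IsPGroup 2 Q)
    (le : ∀ q ∈ Q, q ∈ c.X ∧ Commute q r) :
    ∃ g ∈ c.X, g * r * g⁻¹ = κ (z, 1) ∧ ∀ q ∈ Q, g * q * g⁻¹ ∈ S ⊓ c.X := by
  obtain ⟨g, hg, e⟩ := hr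
  obtain ⟨m, hm, hm'⟩ := (h.syl.of_le (K := c.X ⊓ centralizer {κ (z, 1)}) (fun s hs =>
    ⟨hs.2, mem_centralizer_singleton_iff.2 (h.ou.cz s hs.1 hs.2)⟩) inf_le_left).exists_conj
      (H42.isPGroup_cj g hQ) (H42.cj_le_iff.2 fun q hq => ⟨c.Xn.conj_mem _ (le q hq).1 g,
        mem_centralizer_singleton_iff.2 (e ▸ ((le q hq).2.conj g).eq)⟩)
  refine ⟨m * g, c.X.mul_mem hm.1 hg, ?_, fun q hq => ?_⟩
  · rw [← mul_inv_eq_iff_eq_mul.2 (mem_centralizer_singleton_iff.1 hm.2), ← e]; group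
  · convert hm' _ (H42.conj_mem_cj hq) using 1
    group

/-- `κ (z, 1)` is carried to a square of `S ⊓ X` -/
theorem ext_sq (h : OzC c κ S) {r : G} (hr : OzX c r (κ (1, z))) {q : T} (hq : q * q = z)
    (hc : Commute (κ (q, 1)) r) :
    ∃ g ∈ c.X, g * r * g⁻¹ = κ (1, z) ∧ g * κ (z, 1) * g⁻¹ ∈ κ.range := by
  obtain ⟨g, hg, e, hm⟩ := h.swap.ext hr (Q := S ⊓ c.X ⊓ centralizer {r})
    (h.syl.isP.to_le inf_le_left) fun q hq => ⟨hq.1.2, mem_centralizer_singleton_iff.1 hq.2⟩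
  obtain ⟨h1, h2⟩ := hm _ ⟨⟨h.sy.le ⟨_, rfl⟩, h.ou.le ⟨_, rfl⟩⟩, mem_centralizer_singleton_iff.2 hc⟩
  have := h.sy.sq h.fu h1 (h.ou.cz _ h1 h2)
  rw [conj_mul, ty_mul, hq, mul_one] at this
  exact ⟨g, hg, e, this⟩

omit [Finite G] in
theorem ne (h : OzC c κ S) : κ (z, 1) ≠ κ (1, z) := fun e => ty_z.2.1 (congrArg Prod.fst (h.pr.inj e))

theorem cen (h : OzC c κ S) {w : G} (hw : w ∈ S) (a : Ac κ w 1 1) :
    ∃ a b, (a = 1 ∨ a = z) ∧ (b = 1 ∨ b = z) ∧ κ (a, b) = w := by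
  obtain ⟨⟨x, y⟩, rfl⟩ := h.sy.ker w hw _ _ a fx_one fx_one
  obtain ⟨e1, e2⟩ := Ac.unique h.pr (ac_κ x y) a
  have k : ∀ x : T, MulAut.conj x = 1 → x = 1 ∨ x = z := fun x e => (mem_center x).1 fun g =>
    (mul_inv_eq_iff_eq_mul.1 (DFunLike.congr_fun e g)).symm
  exact ⟨x, y, k x e1, k y e2, rfl⟩

theorem sep (h : OzC c κ S) : ¬ OzX c (κ (z, 1)) (κ (1, z)) := fun hc => by
  obtain ⟨n, hn, e, hm⟩ := h.swap.ext hc h.syl.isP fun q hq => ⟨hq.2, h.ou.cz q hq.1 hq.2⟩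
  have nN := H42.mem_normalizer_of_conj_mem hm
  have kP : ∀ p, κ p ∈ S ⊓ c.X := fun p => ⟨h.sy.le ⟨_, rfl⟩, h.ou.le ⟨_, rfl⟩⟩
  obtain ⟨a, b, ha, hb, e'⟩ := h.cen (hm _ (kP (1, z))).1 fun a b => by
    have h1 := (mem_normalizer_iff''.1 nN _).1 (kP (a, b))
    have h2 : Commute _ (κ (1, z)) := h.swap.ou.cz _ h1.1 h1.2
    calc _ = n * (κ (1, z) * (n⁻¹ * κ (a, b) * n) * (κ (1, z))⁻¹) * n⁻¹ := by group
      _ = κ (a, b) := by rw [← h2.eq]; group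
  have e2 : n * κ (1, z) * n⁻¹ = κ (z, 1) := by
    rcases h.fu.cases h.pr h.sy (hc.conj.trans (isConj_iff.2 ⟨n, e'.symm⟩)) with ⟨-, h1, rfl⟩ | ⟨rfl, -, h1⟩
    · rw [← e', ha.resolve_left h1]
    · rw [hb.resolve_left h1] at e'
      exact (h.ne (by simpa using e.trans e')).elim
  obtain ⟨a, -, k, h1, -, h2, -, -, _, ⟨m, rfl⟩, h3⟩ := exists_parts n
  have h4 : a ∈ S ⊓ c.X := h.syl.eq_of_le (h.syl.isP.to_sup_of_normal_left' (oz_two h2)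
    (zpowers_le_of_mem (zpowers_le_of_mem nN h1))) (sup_le inf_le_right
      (zpowers_le_of_mem (zpowers_le_of_mem hn h1))) le_sup_left ▸ mem_sup_right (mem_zpowers a)
  have h5 : Commute (n * n) (κ (z, 1)) := mul_inv_eq_iff_eq_mul.1 (by
    calc _ = n * (n * κ (z, 1) * n⁻¹) * n⁻¹ := by group
      _ = _ := by rw [e]; exact e2)
  have h6 := (h5.pow_left m).inv_left.mul_left (h.ou.cz a h4.1 h4.2)
  rw [h3, pow_succ, pow_mul, sq, inv_mul_cancel_left] at h6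
  exact h.ne ((mul_inv_eq_iff_eq_mul.2 h6.eq).symm.trans e)

omit [Finite G] in
theorem cls (h : OzC c κ S) {r : G} (hr : IsConj (κ (z, 1)) r) :
    OzX c r (κ (z, 1)) ∨ OzX c r (κ (1, z)) := by
  obtain ⟨g, rfl⟩ := isConj_iff.1 hr
  refine (c.Xi g).imp (fun hg => OzX.symm ⟨g, hg, rfl⟩) fun hg => OzX.symm ⟨_, hg, ?_⟩
  rw [← Sym.sw' h.pr 1 z]; group

theorem fst (h : OzC c κ S) {a b : T} (hc : OzX c (κ (a, b)) (κ (z, 1))) : a ≠ 1 ∧ b = 1 := by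
  rcases h.fu.cases h.pr h.sy hc.conj.symm with h1 | ⟨rfl, h1, h2⟩
  · exact h1.2
  · exact (h.sep (hc.symm.trans (h.swap.fu.one b h1 h2))).elim

theorem lemA (h : OzC c κ S) {r : G} {β₁ β₂ : MulAut T} (a : Ac κ r β₁ β₂) (s : Sw β₁)
    (hr : OzX c r (κ (1, z))) : False := by
  obtain ⟨⟨q, q1, q2⟩, x, hx⟩ := lemO s (a.sq h.pr (hr.sq oz_z2)).1
  obtain ⟨g, hg, e, ⟨a', b'⟩, e'⟩ := h.ext_sq hr q2 (by
    have := a q 1
    rw [q1, map_one] at this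
    exact (mul_inv_eq_iff_eq_mul.1 this).symm)
  obtain ⟨h1, rfl⟩ := h.fst (OzX.symm ⟨g, hg, e'.symm⟩)
  have h2 : OzX c (κ (z, 1) * r) (κ (a', z)) :=
    ⟨g, hg, by rw [← conj_mul, e, ← e', ty_mul, mul_one, one_mul]⟩
  rcases h.fu.cases h.pr h.sy (((Sym.conj12 h.pr z 1).trans hr.conj.symm).trans
    ((oz_shift a h.ou.le hx).trans h2).conj) with h3 | h3
  exacts [ty_z.2.1 h3.2.2, h1 h3.1]

theorem lemM0 (h : OzC c κ S) {v w : G} (hv : OzX c v (κ (z, 1))) (hw : OzX c w (κ (1, z)))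
    (hc : Commute v w) (e : OzX c (v * w) (κ (z, 1))) : False := by
  obtain ⟨g, hg, e1, hm⟩ := h.ext hv (ty_two (hw.sq oz_z2)) (by
    rintro _ ⟨k, rfl⟩
    exact ⟨c.X.zpow_mem (hw.mem (h.ou.le ⟨_, rfl⟩)) k, hc.symm.zpow_left k⟩)
  obtain ⟨h1, h2⟩ := hm _ (mem_zpowers w)
  have h3 : OzX c (g * w * g⁻¹) (κ (1, z)) := (OzX.symm ⟨g, hg, rfl⟩).trans hw
  have h4 : OzX c (κ (z, 1) * (g * w * g⁻¹)) (κ (z, 1)) :=
    (OzX.symm ⟨g, hg, by rw [← conj_mul, e1]⟩).trans e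
  generalize g * w * g⁻¹ = w' at h1 h2 h3 h4
  obtain ⟨β₁, β₂, a⟩ := h.fu.act _ (h.sy.norm _ h1) (h.ou.cz _ h1 h2)
  rcases aut_cases β₂ with f | f
  · obtain ⟨⟨x, y⟩, rfl⟩ := h.sy.ker _ h1 _ _ a ((aut_cases β₁).resolve_right fun s => h.lemA a s h3) f
    rw [ty_mul, one_mul] at h4
    exact (h.swap.fst (a := y) (b := x) h3).1 (h.fst h4).2
  · exact h.swap.lemA ((ac_κ z 1).mul a).swap ((fx_conj 1).mul_sw f) h4

theorem lemM (h : OzC c κ S) {v w : G} (hv : OzX c v (κ (z, 1))) (hw : OzX c w (κ (1, z)))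
    (hc : Commute v w) (e : IsConj (κ (z, 1)) (v * w)) : False :=
  (h.cls e).elim (h.lemM0 hv hw hc) fun e' => h.swap.lemM0 hw hv hc.symm (hc.eq ▸ e')

theorem lemB (h : OzC c κ S) {r : G} {β₁ β₂ : MulAut T} (a : Ac κ r β₁ β₂) (hr : OzX c r (κ (1, z))) :
    β₁ = 1 := by
  by_contra h1
  obtain ⟨x, u, u2, u1, hu, hx⟩ := dih (a.sq h.pr (hr.sq oz_z2)).1 h1
  refine h.lemM (h.fu.one u u2 u1) hr ?_
    (((Sym.conj12 h.pr z 1).trans hr.conj.symm).trans (oz_shift a h.ou.le hx).conj)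
  have := a u 1
  rw [hu, map_one] at this
  exact (mul_inv_eq_iff_eq_mul.1 this).symm

theorem Z0 (h : OzC c κ S) {r : G} (hS : r ∈ S) (hr : OzX c r (κ (z, 1))) : r ∈ κ.range := by
  have rX := hr.mem (h.ou.le ⟨_, rfl⟩)
  have r2 := hr.sq oz_z1
  have cz := h.ou.cz r hS rX
  have cz2 : Commute r (κ (1, z)) := h.swap.ou.cz r hS rX
  obtain ⟨β, β₂, a⟩ := h.fu.act _ (h.sy.norm _ hS) cz
  obtain rfl := h.swap.lemB a.swap hr
  refine h.sy.ker r hS _ _ a ((aut_cases β).resolve_right fun s => ?_) fx_one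
  have a' := Ac.t h.pr a
  have hS' : c.t * r * c.t ∈ S := S.mul_mem (S.mul_mem h.sy.tS hS) h.sy.tS
  have rX' := Sym.tX rX
  have hr' : OzX c (c.t * r * c.t) (κ (1, z)) := by
    obtain ⟨g, hg, e⟩ := hr.symm
    exact OzX.symm ⟨_, Sym.tX hg, by rw [Sym.tconj h.pr, e, Sym.tinv]⟩
  have ut : Commute r (c.t * r * c.t) → Commute (r * (c.t * r * c.t)) c.t := fun e => by
    calc r * (c.t * r * c.t) * c.t = c.t⁻¹ * (c.t * r * c.t * r) * (c.t * c.t) := by group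
      _ = _ := by rw [c.tt, ← e.eq, Sym.tinv, mul_one]
  generalize c.t * r * c.t = r' at a' hS' rX' hr' ut
  have z1 : OzX c (κ (z, 1)) (κ (z, 1)) := ⟨1, c.X.one_mem, by simp⟩
  have z2 : OzX c (κ (1, z)) (κ (1, z)) := ⟨1, c.X.one_mem, by simp⟩
  have ri := inv_eq_of_mul_eq_one_right r2
  obtain ⟨x, y, hx, hy, e⟩ := h.cen (S.mul_mem (S.mul_mem (S.mul_mem hS hS') (S.inv_mem hS))
    (S.inv_mem hS')) (by simpa using ((a.mul a').mul a.inv).mul a'.inv)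
  have e1 : r' * r * r'⁻¹ = r * κ (x, y) := by
    calc r' * r * r'⁻¹ = r⁻¹ * (r * r' * r * r'⁻¹) := by group
      _ = _ := by rw [e, ri]
  have c1 : IsConj (κ (z, 1)) (r * κ (x, y)) := hr.conj.symm.trans (isConj_iff.2 ⟨r', e1⟩)
  rcases hx with rfl | rfl <;> rcases hy with rfl | rfl
  · rw [Prod.mk_one_one, map_one, mul_one] at e1
    have cm : Commute r r' := (mul_inv_eq_iff_eq_mul.1 e1).symm
    obtain ⟨g, hg, e2, hm⟩ := h.ext hr (ty_two (hr'.sq oz_z2)) (by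
      rintro _ ⟨k, rfl⟩
      exact ⟨c.X.zpow_mem rX' k, cm.symm.zpow_left k⟩)
    obtain ⟨h1, h2⟩ := hm _ (mem_zpowers r')
    have h3 : OzX c (g * r' * g⁻¹) (κ (1, z)) := (OzX.symm ⟨g, hg, rfl⟩).trans hr'
    obtain ⟨γ₁, γ₂, b⟩ := h.fu.act _ (h.sy.norm _ h1) (h.ou.cz _ h1 h2)
    obtain rfl := h.lemB b h3
    obtain ⟨q, hq⟩ := ty_z.2.2
    obtain ⟨g', -, e3, p, e4⟩ := h.ext_sq h3 hq (by
      have := b q 1
      rw [map_one] at this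
      exact (mul_inv_eq_iff_eq_mul.1 this).symm)
    refine h.ou.rho _ (S.mul_mem hS hS') (by
      rw [cm.symm.mul_mul_mul_comm, r2, hr'.sq oz_z2, mul_one]) (ut cm) (fun hH => ?_) (p * (1, z))
      (isConj_iff.2 ⟨g' * g, by rw [map_mul, e4, ← e3, ← e2]; group⟩)
    obtain ⟨x, e5 | e5⟩ := h.sy.mem_H h.pr (S.mul_mem hS hS') hH
    · exact not_fx_sw (Ac.fx h.pr (a.mul a') (e5 ▸ h.pr.ι_range x)).1 (s.mul_fx fx_one)
    · exact h.ou.tX ((c.X.mul_mem_cancel_right (h.ou.le (h.pr.ι_range x))).1 (e5 ▸ c.X.mul_mem rX rX'))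
  · exact h.lemM hr z2 cz2 c1
  · refine h.lemM z1 hr' (h.ou.cz _ hS' rX').symm
      (((Sym.conj12 h.pr z 1).trans hr'.conj.symm).trans (isConj_iff.2 ⟨r, ?_⟩))
    rw [e, inv_mul_cancel_right]
  · obtain ⟨-, x, hx⟩ := lemO s (a.sq h.pr r2).1
    refine h.lemM ((oz_shift a h.ou.le hx).symm.trans hr) z2 (Commute.mul_left ?_ cz2) ?_
    · rw [Commute, SemiconjBy, ty_mul, ty_mul, mul_one, one_mul]
    · rwa [← cz.eq, mul_assoc, ty_mul, mul_one, one_mul]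

end OzC

theorem Pr.oz (h : Pr c κ) (hS : Sy c κ S) (hF : Fu c κ) (hO : Ou c κ S) : Oz c κ S :=
  have k : OzC c κ S := ⟨h, hS, hF, hO⟩
  ⟨fun _ hr hc => (k.cls hc).elim (k.Z0 hr) fun e => range_flp (κ := κ) ▸ k.swap.Z0 hr e,
    fun g hg e => k.sep ⟨g, hg, e⟩⟩

end Cfsg.Agent.WR
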