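import Cfsg.Agent.WR.Bas2

set_option autoImplicit false
set_option linter.unusedSectionVars false

namespace Cfsg.Agent.WR

open Subgroup Cfsg.Agent.H78
open Cfsg.Agent.H42 (SylIn cj)

variable {G : Type*} [Group G] [Finite G] {c : Cf G}

namespace Quad

variable {D : Subgroup T} {Q : Subgroup G}

theorem Dsq (hD : D = E ∨ D = F) {e : T} (he : e ∈ D) : e * e = 1 := by
  rcases hD with rfl | rfl
  · exact (E_facts e he).1
  · exact (F_facts e he).1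

theorem ιsq (hD : D = E ∨ D = F) {e : T} (he : e ∈ D) : c.ι e * c.ι e = 1 := by
  rw [← map_mul, Dsq hD he, map_one]

theorem eq_of (hD : D = E ∨ D = F) {e e' : T} (he' : e' ∈ D) (h : e * e' = 1) : e = e' :=
  mul_right_cancel (h.trans (Dsq hD he').symm)

theorem φmul (h : DD c D Q) {q q' : G} (hq : q ∈ Q) {e e' : T}
    (he' : e' ∈ D) (h1 : q * c.t * q⁻¹ = c.t * c.ι e) (h2 : q' * c.t * q'⁻¹ = c.t * c.ι e') :
    q * q' * c.t * (q * q')⁻¹ = c.t * c.ι (e * e') := by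
  have e3 : q * c.ι e' * q⁻¹ = c.ι e' := by
    rw [(h.cD q hq _ he').eq, mul_inv_cancel_right]
  calc q * q' * c.t * (q * q')⁻¹ = q * (q' * c.t * q'⁻¹) * q⁻¹ := by group
    _ = (q * c.t * q⁻¹) * (q * c.ι e' * q⁻¹) := by rw [h2]; group
    _ = _ := by rw [h1, e3, map_mul]; group

theorem φt {q y : G} (h1 : q * c.t * q⁻¹ = y) : q * c.t * c.t * (q * c.t)⁻¹ = y := by
  rw [← h1]; group

theorem φι (x : T) : c.ι x * c.t * (c.ι x)⁻¹ = c.t * c.ι 1 := by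
  rw [(c.ιt x).eq, map_one, mul_one, mul_inv_cancel_right]

theorem sqt (h : DD c D Q) (hD : D = E ∨ D = F) {q : G} (hq : q ∈ Q) {e : T} (he : e ∈ D)
    (h1 : q * c.t * q⁻¹ = c.t * c.ι e) : q * c.t * (q * c.t) = c.ι e * (q * q) := by
  have e1 := φmul h hq he h1 h1
  rw [Dsq hD he, map_one, mul_one, mul_inv_eq_iff_eq_mul] at e1
  calc q * c.t * (q * c.t) = (q * c.t * q⁻¹) * (q * q * c.t) := by group
    _ = c.t * c.ι e * c.t * (q * q) := by rw [h1, e1]; group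
    _ = c.ι e * (c.t * c.t) * (q * q) := by rw [← (c.ιt e).eq]; group
    _ = _ := by rw [c.tt, mul_one]

theorem sq' (h : DD c D Q) (hD : D = E ∨ D = F)
    (hq : ∀ q ∈ Q, ∀ e ∈ D, e ≠ 1 → q * c.t * q⁻¹ = c.t * c.ι e → q * q = 1 ∨ q * q = c.ι e)
    {q : G} (hQ : q ∈ Q) {e : T} (he : e ∈ D) (h1 : q * c.t * q⁻¹ = c.t * c.ι e) :
    q * q = 1 ∨ q * q = c.ι e := by
  by_cases h0 : e = 1
  · rw [h0, map_one, mul_one, mul_inv_eq_iff_eq_mul] at h1
    obtain ⟨x, hx, rfl | rfl⟩ := h.ker q hQ h1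
    · exact Or.inl (ιsq hD hx)
    · left
      calc c.t * c.ι x * (c.t * c.ι x) = c.t * (c.ι x * c.t) * c.ι x := by group
        _ = (c.t * c.t) * (c.ι x * c.ι x) := by rw [(c.ιt x).eq]; group
        _ = 1 := by rw [c.tt, ιsq hD hx, mul_one]
  · exact hq q hQ e he h0 h1

theorem uniq (h : DD c D Q) (hD : D = E ∨ D = F) {a b : G} (ha : a ∈ Q) (hb : b ∈ Q) {e : T}
    (he : e ∈ D) (h0 : e ≠ 1) (h1 : a * c.t * a⁻¹ = c.t * c.ι e) (h2 : b * c.t * b⁻¹ = c.t * c.ι e)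
    (h3 : a * a = b * b) : ∃ x ∈ D, b = a * c.ι x := by
  have hc : Commute (a⁻¹ * b) c.t := by
    show a⁻¹ * b * c.t = c.t * (a⁻¹ * b)
    calc a⁻¹ * b * c.t = a⁻¹ * (b * c.t * b⁻¹) * b := by group
      _ = _ := by rw [h2, ← h1]; group
  obtain ⟨x, hx, e1 | e1⟩ := h.ker _ (Q.mul_mem (Q.inv_mem ha) hb) hc
  · exact ⟨x, hx, by rw [← e1]; group⟩
  · exfalso
    have e2 : b = a * c.t * c.ι x := by rw [mul_assoc, ← e1]; group
    have e3 : Commute (a * c.t) (c.ι x) := h.cD _ (Q.mul_mem ha h.tQ) x hx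
    have e4 : b * b = c.ι e * (a * a) := by
      rw [e2, ← sqt h hD ha he h1]
      calc a * c.t * c.ι x * (a * c.t * c.ι x) = a * c.t * (c.ι x * (a * c.t)) * c.ι x := by group
        _ = a * c.t * (a * c.t) * (c.ι x * c.ι x) := by rw [← e3.eq]; group
        _ = _ := by rw [ιsq hD hx, mul_one]
    rw [← h3, right_eq_mul, ← map_one c.ι] at e4
    exact h0 (c.inj e4)

/-- two involutions that do not commute -/
theorem ncomm (h : DD c D Q) (hD : D = E ∨ D = F)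
    (hq : ∀ q ∈ Q, ∀ e ∈ D, e ≠ 1 → q * c.t * q⁻¹ = c.t * c.ι e → q * q = 1 ∨ q * q = c.ι e)
    {x y : G} (hx : x ∈ Q) (hy : y ∈ Q) {u v : T} (hu : u ∈ D) (hv : v ∈ D)
    (h1 : x * c.t * x⁻¹ = c.t * c.ι u) (h2 : y * c.t * y⁻¹ = c.t * c.ι v) (xx : x * x = 1)
    (yy : y * y = 1) (hn : ¬ Commute x y) : x * y = c.ι (u * v) * (y * x) := by
  have key : x * y = x * y * (x * y) * (y * x) := by
    calc x * y = x * y * (x * x) := by rw [xx, mul_one]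
      _ = x * y * (x * (y * y) * x) := by rw [yy, mul_one]
      _ = _ := by group
  rcases sq' h hD hq (Q.mul_mem hx hy) (D.mul_mem hu hv) (φmul h hx hv h1 h2) with e | e
  · rw [e, one_mul] at key
    exact absurd key hn
  · rw [e] at key
    exact key

theorem tri (h : DD c D Q) (hD : D = E ∨ D = F)
    (hq : ∀ q ∈ Q, ∀ e ∈ D, e ≠ 1 → q * c.t * q⁻¹ = c.t * c.ι e → q * q = 1 ∨ q * q = c.ι e)
    {x y p : G} (hx : x ∈ Q) (hy : y ∈ Q) (hp : p ∈ Q) {u v w : T} (hu : u ∈ D) (hv : v ∈ D)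
    (hw : w ∈ D) (h1 : x * c.t * x⁻¹ = c.t * c.ι u) (h2 : y * c.t * y⁻¹ = c.t * c.ι v)
    (h3 : p * c.t * p⁻¹ = c.t * c.ι w) (xx : x * x = 1) (pp : p * p = 1) (uv : u ≠ v) (uw : u ≠ w)
    (v1 : v ≠ 1) (w1 : w ≠ 1) (hc : Commute x y) : Commute x p := by
  by_contra hn
  have e1 := ncomm h hD hq hx hp hu hw h1 h3 xx pp hn
  have e2 : x * (y * p) = c.ι (u * w) * (y * p) * x := by
    calc x * (y * p) = y * (x * p) := by rw [← mul_assoc, hc.eq, mul_assoc]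
      _ = (y * c.ι (u * w)) * (p * x) := by rw [e1]; group
      _ = _ := by rw [(h.cD y hy _ (D.mul_mem hu hw)).eq]; group
  have e3 : x * (y * p) * (x * (y * p)) = c.ι (u * w) * (y * p * (y * p)) := by
    calc x * (y * p) * (x * (y * p)) = c.ι (u * w) * (y * p) * x * (x * (y * p)) := by rw [← e2]
      _ = c.ι (u * w) * (y * p) * (x * x) * (y * p) := by group
      _ = _ := by rw [xx]; group
  have hyp := φmul h hy hw h2 h3
  have cvw : v * w = w * v := elem_comm (fun a ha => Dsq hD ha) hv hw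
  have e4 : u * w * (v * w) = u * v := by
    rw [cvw, mul_assoc, ← mul_assoc w, Dsq hD hw, one_mul]
  rcases sq' h hD hq (Q.mul_mem hy hp) (D.mul_mem hv hw) hyp with a | a <;>
  rcases sq' h hD hq (Q.mul_mem hx (Q.mul_mem hy hp)) (D.mul_mem hu (D.mul_mem hv hw))
    (φmul h hx (D.mul_mem hv hw) h1 hyp) with b | b <;> rw [a, b] at e3
  · rw [mul_one, ← map_one c.ι] at e3
    exact uw (eq_of hD hw (c.inj e3).symm)
  · rw [mul_one] at e3
    exact v1 (by simpa using c.inj e3)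
  · rw [← map_mul, e4, ← map_one c.ι] at e3
    exact uv (eq_of hD hv (c.inj e3).symm)
  · rw [← map_mul, e4] at e3
    exact w1 (by simpa using c.inj e3)

theorem build (h : DD c D Q) (hD : D = E ∨ D = F)
    (hq : ∀ q ∈ Q, ∀ e ∈ D, e ≠ 1 → q * c.t * q⁻¹ = c.t * c.ι e → q * q = 1 ∨ q * q = c.ι e)
    (u : Bool) (K : ∀ a ∈ Q, ∀ b ∈ Q, ∀ e ∈ D, ∀ e' ∈ D, e ≠ 1 → e' ≠ 1 → e ≠ e' →
      a * c.t * a⁻¹ = c.t * c.ι e → b * c.t * b⁻¹ = c.t * c.ι e' →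
      (a * a = if u then 1 else c.ι e) → (b * b = if u then 1 else c.ι e') → Commute a b) :
    ∃ R, DS c D Q R u := by
  obtain ⟨s, hs, smul, sD⟩ : ∃ s : T → T, (∀ e, (if u then 1 else c.ι e) = c.ι (s e)) ∧
      (∀ e e', s (e * e') = s e * s e') ∧ ∀ e ∈ D, s e ∈ D := by
    cases u
    · exact ⟨id, fun _ => rfl, fun _ _ => rfl, fun _ h => h⟩
    · exact ⟨fun _ => 1, fun _ => by simp, fun _ _ => by simp, fun _ _ => D.one_mem⟩
  let M : G → Prop := fun q => q ∈ Q ∧ ((∃ e ∈ D, q = c.ι e) ∨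
    ∃ e ∈ D, e ≠ 1 ∧ q * c.t * q⁻¹ = c.t * c.ι e ∧ q * q = c.ι (s e))
  have cm : ∀ a b, M a → M b → Commute a b := by
    rintro a b ⟨ha, ⟨x, hx, rfl⟩ | ⟨e, he, e1, a1, a2⟩⟩ ⟨hb, hb'⟩
    · exact (h.cD b hb x hx).symm
    rcases hb' with ⟨x, hx, rfl⟩ | ⟨e', he', e1', b1, b2⟩
    · exact h.cD a ha x hx
    by_cases hee : e = e'
    · subst hee
      obtain ⟨x, hx, rfl⟩ := uniq h hD ha hb he e1 a1 b1 (a2.trans b2.symm)
      exact (Commute.refl a).mul_right (h.cD a ha x hx)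
    · exact K a ha b hb e he e' he' e1 e1' hee a1 b1 (a2.trans (hs e).symm) (b2.trans (hs e').symm)
  have m1 : ∀ b, M b → ∀ x ∈ D, M (c.ι x * b) := by
    rintro b ⟨hb, ⟨y, hy, rfl⟩ | ⟨e, he, e1, b1, b2⟩⟩ x hx
    · exact ⟨Q.mul_mem (h.DQ x hx) hb, Or.inl ⟨x * y, D.mul_mem hx hy, (map_mul _ _ _).symm⟩⟩
    · refine ⟨Q.mul_mem (h.DQ x hx) hb, Or.inr ⟨e, he, e1, ?_, ?_⟩⟩
      · have := φmul h (h.DQ x hx) he (φι x) b1
        rwa [one_mul] at this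
      · rw [(h.cD b hb x hx).mul_mul_mul_comm, ιsq hD hx, one_mul, b2]
  have mm : ∀ a b, M a → M b → M (a * b) := by
    intro a b hA hB
    have hc := cm a b hA hB
    obtain ⟨ha, ⟨x, hx, rfl⟩ | ⟨e, he, e1, a1, a2⟩⟩ := id hA
    · exact m1 b hB x hx
    obtain ⟨hb, ⟨x, hx, rfl⟩ | ⟨e', he', e1', b1, b2⟩⟩ := id hB
    · rw [hc.eq]
      exact m1 a hA x hx
    refine ⟨Q.mul_mem ha hb, ?_⟩
    by_cases hee : e = e'
    · subst hee
      obtain ⟨x, hx, rfl⟩ := uniq h hD ha hb he e1 a1 b1 (a2.trans b2.symm)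
      exact Or.inl ⟨s e * x, D.mul_mem (sD e he) hx, by rw [← mul_assoc, a2, map_mul]⟩
    · refine Or.inr ⟨e * e', D.mul_mem he he', fun h0 => hee (eq_of hD he' h0),
        φmul h ha he' a1 b1, ?_⟩
      rw [hc.symm.mul_mul_mul_comm, a2, b2, smul, map_mul]
  have mi : ∀ a, M a → M a⁻¹ := by
    intro a hA
    have e4 : a * a * (a * a) = 1 := by
      obtain ⟨-, ⟨x, hx, rfl⟩ | ⟨e, he, -, -, a2⟩⟩ := hA
      · rw [ιsq hD hx, mul_one]
      · rw [a2, ιsq hD (sD e he)]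
    have e5 : a⁻¹ = a * (a * a) := inv_eq_of_mul_eq_one_right (by rw [← e4]; group)
    rw [e5]
    exact mm _ _ hA (mm _ _ hA hA)
  have mD : ∀ e ∈ D, M (c.ι e) := fun e he => ⟨h.DQ e he, Or.inl ⟨e, he, rfl⟩⟩
  let R : Subgroup G :=
    { carrier := {q | M q}
      one_mem' := by simpa using mD 1 D.one_mem
      mul_mem' := fun ha hb => mm _ _ ha hb
      inv_mem' := fun ha => mi _ ha }
  have hR : ∀ q, q ∈ R ↔ M q := fun _ => Iff.rfl
  have mem : ∀ q ∈ Q, ∀ e ∈ D, e ≠ 1 → q * c.t * q⁻¹ = c.t * c.ι e →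
      (q ∈ R ↔ q * q = if u then 1 else c.ι e) := by
    intro q hQ e he e1 h1
    rw [hs, hR]
    refine ⟨?_, fun h2 => ⟨hQ, Or.inr ⟨e, he, e1, h1, h2⟩⟩⟩
    rintro ⟨-, ⟨x, -, rfl⟩ | ⟨e', -, -, h2, h3⟩⟩
    · rw [φι] at h1
      exact absurd (c.inj (mul_left_cancel h1)).symm e1
    · rw [h2] at h1
      rw [← c.inj (mul_left_cancel h1), h3]
  refine ⟨R, fun q hq => hq.1, fun a ha b hb => cm a b ha hb, mD, ?_, fun q hQ => ?_, mem⟩
  · rintro ⟨-, ⟨x, -, e⟩ | ⟨e, -, e1, h1, -⟩⟩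
    · exact c.tL (e ▸ c.toGF.ι_mem x)
    · rw [mul_inv_cancel_right, left_eq_mul, ← map_one c.ι] at h1
      exact e1 (c.inj h1)
  · obtain ⟨e, he, h1⟩ := h.φ q hQ
    by_cases e1 : e = 1
    · rw [e1, map_one, mul_one, mul_inv_eq_iff_eq_mul] at h1
      obtain ⟨x, hx, rfl | rfl⟩ := h.ker q hQ h1
      · exact Or.inl (mD x hx)
      · right
        rw [← (c.ιt x).eq, mul_assoc, c.tt, mul_one]
        exact mD x hx
    rw [mem q hQ e he e1 h1, mem _ (Q.mul_mem hQ h.tQ) e he e1 (φt h1), sqt h hD hQ he h1]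
    rcases hq q hQ e he e1 h1 with a | a <;> rw [a] <;> cases u <;> simp [ιsq hD he]

end Quad

open Quad

theorem DD.exists_ds {D : Subgroup T} {Q : Subgroup G} (h : DD c D Q) (hD : D = E ∨ D = F)
    (hq : ∀ q ∈ Q, ∀ e ∈ D, e ≠ 1 → q * c.t * q⁻¹ = c.t * c.ι e → q * q = 1 ∨ q * q = c.ι e) :
    ∃ R u, DS c D Q R u := by
  by_cases hC : ∃ x ∈ Q, ∃ y ∈ Q, ∃ u ∈ D, ∃ v ∈ D, u ≠ 1 ∧ v ≠ 1 ∧ u ≠ v ∧
      x * c.t * x⁻¹ = c.t * c.ι u ∧ y * c.t * y⁻¹ = c.t * c.ι v ∧ x * x = 1 ∧ y * y = 1 ∧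
      Commute x y
  · obtain ⟨x, hx, y, hy, u, hu, v, hv, u1, v1, uv, h1, h2, xx, yy, hc⟩ := hC
    obtain ⟨R, hR⟩ := build h hD hq true fun a ha b hb e he e' he' e1 e1' ee a1 b1 a2 b2 => by
      by_cases eu : u = e
      · subst eu
        have k := tri h hD hq hy hx ha hv hu hu h2 h1 a1 yy a2 uv.symm uv.symm u1 u1 hc.symm
        exact tri h hD hq ha hy hb hu hv he' a1 h2 b1 a2 b2 uv ee v1 e1' k.symm
      · have k := tri h hD hq hx hy ha hu hv he h1 h2 a1 xx a2 uv eu v1 e1 hc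
        exact tri h hD hq ha hx hb he hu he' a1 h1 b1 a2 b2 (Ne.symm eu) ee u1 e1' k.symm
    exact ⟨R, true, hR⟩
  · obtain ⟨R, hR⟩ := build h hD hq false fun a ha b hb e he e' he' e1 e1' ee a1 b1 a2 b2 => by
      have a2' : a * a = c.ι e := a2
      have b2' : b * b = c.ι e' := b2
      have hx := Q.mul_mem ha h.tQ
      have hy := Q.mul_mem hb h.tQ
      have xx : a * c.t * (a * c.t) = 1 := by rw [sqt h hD ha he a1, a2', ιsq hD he]
      have yy : b * c.t * (b * c.t) = 1 := by rw [sqt h hD hb he' b1, b2', ιsq hD he']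
      have k := ncomm h hD hq hx hy he he' (φt a1) (φt b1) xx yy fun hc =>
        hC ⟨_, hx, _, hy, e, he, e', he', e1, e1', ee, φt a1, φt b1, xx, yy, hc⟩
      have mv : ∀ q ∈ Q, ∀ p ∈ Q, ∀ w ∈ D, p * c.t * p⁻¹ = c.t * c.ι w →
          q * c.t * (p * c.t) = c.ι w * (q * p) := by
        intro q hQ p _ w hw h1
        calc q * c.t * (p * c.t) = q * c.t * (p * c.t * p⁻¹) * p := by group
          _ = q * (c.t * c.t) * c.ι w * p := by rw [h1]; group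
          _ = _ := by rw [c.tt, mul_one, (h.cD q hQ w hw).eq, mul_assoc]
      rw [mv a ha b hb e' he' b1, mv b hb a ha e he a1, ← mul_assoc (c.ι (e * e')),
        ← map_mul] at k
      have e4 : e * e' * e = e' := by
        rw [elem_comm (fun a ha => Dsq hD ha) he he', mul_assoc, Dsq hD he, mul_one]
      rw [e4] at k
      exact mul_left_cancel k
    exact ⟨R, false, hR⟩

end Cfsg.Agent.WR
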