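import Cfsg.Agent.WR.JL
import Cfsg.Agent.WR.Bas2

/-! Project WR: the Sylow 2-subgroup over `(T × T) ⟨t⟩` (notes/WR.md, section Syl). -/

set_option autoImplicit false
set_option maxRecDepth 100000

namespace Cfsg.Agent.WR

open Subgroup Cfsg.Agent.H78
open Cfsg.Agent.H42 (SylIn cj)

/-- `K ⟨t⟩` -/
def extT {G : Type*} [Group G] (K : Subgroup G) {t : G} (tt : t * t = 1)
    (hK : ∀ k ∈ K, t * k * t ∈ K) : Subgroup G where
  carrier := {g | g ∈ K ∨ g * t ∈ K}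
  one_mem' := .inl K.one_mem
  mul_mem' := by
    have k : ∀ x, t * (t * x) = x := fun x => by rw [← mul_assoc, tt, one_mul]
    rintro g h (hg | hg) (hh | hh)
    · exact .inl (mul_mem hg hh)
    · exact .inr (by rw [mul_assoc]; exact mul_mem hg hh)
    · exact .inr (by simpa only [mul_assoc, k] using mul_mem hg (hK _ hh))
    · exact .inl (by simpa only [mul_assoc, k, tt, mul_one] using mul_mem hg (hK _ hh))
  inv_mem' := by
    rintro g (hg | hg)
    · exact .inl (inv_mem hg)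
    · exact .inr (by simpa using hK _ (inv_mem hg))

variable {G : Type*} [Group G] [Finite G] {c : Cf G} {κ : T × T →* G}

omit [Finite G] in
theorem exists_aut (hκ : Function.Injective κ) {r : G} (hr : r ∈ normalizer (κ.range : Set G)) :
    ∃ θ : MulAut (T × T), ∀ p, r * κ p * r⁻¹ = κ (θ p) :=
  ⟨MulAut.congr (MonoidHom.ofInjective hκ).symm (κ.range.normalizerMonoidHom ⟨r, hr⟩), fun p =>
    (MonoidHom.apply_ofInjective_symm hκ
      (κ.range.normalizerMonoidHom ⟨r, hr⟩ (MonoidHom.ofInjective hκ p))).symm⟩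

theorem Vx_conj (p : Bool × Bool) (g : T × T) {a : T × T} (h : a ∈ Vx p) : g * a * g⁻¹ ∈ Vx p := by
  have k : ∀ (b : Bool) (g a : T), a ∈ (bif b then F else E) → g * a * g⁻¹ ∈ (bif b then F else E) :=
    fun b g a h => by
      cases b
      exacts [(E_facts a h).2.2.1 g, (F_facts a h).2.2.1 g]
  exact ⟨k _ _ _ h.1, k _ _ _ h.2⟩

omit [Finite G] in
theorem Pr.tinv (c : Cf G) : c.t⁻¹ = c.t := inv_eq_of_mul_eq_one_right c.tt

omit [Finite G] in
theorem Pr.tY (h : Pr c κ) : ∀ k ∈ κ.range, c.t * k * c.t ∈ κ.range := by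
  rintro _ ⟨⟨a, b⟩, rfl⟩
  exact ⟨_, (h.sw a b).symm⟩

/-- the kernel of the action on the four subgroups -/
def R0 (κ : T × T →* G) (S : Subgroup G) : Subgroup G :=
  S ⊓ normalizer (κ.range : Set G) ⊓ ⨅ p, normalizer ((Vx p).map κ : Set G)

theorem mem_R0 {S : Subgroup G} {r : G} : r ∈ R0 κ S ↔ r ∈ S ∧ r ∈ normalizer (κ.range : Set G) ∧
    ∀ p, ∀ a ∈ Vx p, r * κ a * r⁻¹ ∈ (Vx p).map κ := by
  rw [R0, mem_inf, mem_inf, mem_iInf, and_assoc]
  refine and_congr Iff.rfl (and_congr Iff.rfl (forall_congr' fun p => ⟨fun h a ha =>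
    H42.conj_mem_of_mem_normalizer h (mem_map_of_mem κ ha), fun h => H42.mem_normalizer_of_conj_mem ?_⟩))
  rintro _ ⟨a, ha, rfl⟩
  exact h a ha

theorem Pr.kerl (h : Pr c κ) {S : Subgroup G} (hS : IsPGroup 2 S) (le : κ.range ≤ S) (tS : c.t ∈ S) :
    R0 κ S ≤ κ.range := by
  have ti := Pr.tinv c
  have YR : κ.range ≤ R0 κ S := by
    rintro _ ⟨g, rfl⟩
    exact mem_R0.2 ⟨le ⟨g, rfl⟩, le_normalizer (show κ g ∈ κ.range from ⟨g, rfl⟩), fun p a ha =>
      ⟨_, Vx_conj p g ha, by simp⟩⟩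
  have tN : c.t ∈ normalizer (κ.range : Set G) :=
    H42.mem_normalizer_of_conj_mem fun x hx => ti.symm ▸ h.tY x hx
  have tR : ∀ r ∈ R0 κ S, c.t * r * c.t ∈ R0 κ S := fun r hr => by
    obtain ⟨h1, h2, h3⟩ := mem_R0.1 hr
    refine mem_R0.2 ⟨mul_mem (mul_mem tS h1) tS, mul_mem (mul_mem tN h2) tN, fun p a ha => ?_⟩
    obtain ⟨b, hb, e⟩ := h3 (p.2, p.1) (a.2, a.1) ⟨ha.2, ha.1⟩
    refine ⟨(b.2, b.1), ⟨hb.2, hb.1⟩, ?_⟩
    rw [← h.sw, e, ← h.sw a.1 a.2, mul_inv_rev, mul_inv_rev, ti]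
    simp only [mul_assoc]
  have tn : c.t ∉ R0 κ S := fun ht => by
    have := (mem_R0.1 ht).2.2 (false, true) (e2, 1) ⟨show e2 ∈ E by decide +kernel, one_mem _⟩
    rw [ti, h.sw, mem_map_iff_mem h.inj] at this
    exact absurd (show e2 ∈ F from this.2) (by decide +kernel)
  have cen : ∀ r ∈ R0 κ S, Commute r c.t → r ∈ κ.range := fun r hr cr => by
    have hH : r ∈ c.H := c.normE cr fun e he => by
      obtain ⟨⟨a, b⟩, hb, e'⟩ := (mem_R0.1 hr).2.2 (false, false) (e, e) ⟨he, he⟩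
      have c1 : Commute (κ (a, b)) c.t := by
        rw [e', h.diag]
        exact (cr.mul_left (c.ιt e)).mul_left cr.inv_left
      have := h.sw a b
      rw [← c1.eq, mul_assoc, c.tt, mul_one] at this
      obtain rfl : a = b := congrArg Prod.fst (h.inj this)
      exact ⟨a, hb.1, by rw [← h.diag, ← e', h.diag]⟩
    obtain ⟨x, e | e⟩ := c.maxS (Q := S ⊓ c.H) hS.to_inf_left inf_le_right ⟨tS, c.tH⟩
      (fun x => ⟨le ⟨_, h.diag x⟩, c.Hsyl.le (mem_sup_right ⟨x, rfl⟩)⟩) ⟨hr.1.1, hH⟩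
    · exact ⟨_, (h.diag x).trans e.symm⟩
    · exact absurd ((mul_mem_cancel_right (YR ⟨_, h.diag x⟩)).1 (e ▸ hr)) tn
  by_contra hn
  have lt : extT κ.range c.tt h.tY < extT (R0 κ S) c.tt tR := by
    refine lt_of_le_of_ne (fun g hg => hg.imp (fun e => YR e) fun e => YR e) fun e => hn fun r hr => ?_
    have : r ∈ extT κ.range c.tt h.tY := e ▸ .inl hr
    exact this.resolve_right fun e' => tn ((mul_mem_cancel_left hr).1 (YR e'))
  obtain ⟨y, ⟨hy, hy'⟩, ny⟩ := SetLike.exists_of_lt (H42.lt_inf_normalizer (p := 2) (hS.to_le (by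
    rintro g (hg | hg)
    exacts [hg.1.1, (mul_mem_cancel_right tS).1 hg.1.1])) lt)
  have tE : c.t ∈ extT κ.range c.tt h.tY := .inr (c.tt ▸ one_mem _)
  obtain ⟨x, hx, hx', nx⟩ : ∃ x ∈ R0 κ S, x ∈ normalizer (extT κ.range c.tt h.tY : Set G) ∧
      x ∉ κ.range := by
    rcases hy with hy | hy
    exacts [⟨y, hy, hy', fun e => ny (.inl e)⟩,
      ⟨_, hy, mul_mem hy' (le_normalizer tE), fun e => ny (.inr e)⟩]
  rcases H42.conj_mem_of_mem_normalizer hx' tE with e | ⟨⟨a, b⟩, e⟩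
  · exact tn (YR ((mem_normalizer_iff.1 hx.1.2 _).2 e))
  · have e1 : κ (b, a) * κ (a, b) = 1 := by
      rw [← h.sw, e]
      simp only [mul_assoc, ← mul_assoc c.t c.t, c.tt, one_mul, inv_mul_cancel_left, mul_inv_cancel_left,
        mul_one]
    rw [← map_mul, ← map_one κ] at e1
    have e2 : b = a⁻¹ := eq_inv_of_mul_eq_one_left (congrArg Prod.fst (h.inj e1))
    refine nx ((mul_mem_cancel_left (inv_mem (MonoidHom.mem_range.2 ⟨(a, 1), rfl⟩))).1
      (cen _ (mul_mem (inv_mem (YR ⟨(a, 1), rfl⟩)) hx) (mul_inv_eq_iff_eq_mul.1 ?_)))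
    have e3 : x * c.t * x⁻¹ = κ (a, 1) * κ (1, a⁻¹) * c.t := by
      rw [← map_mul, eq_mul_inv_of_mul_eq e.symm, ti, e2]
      simp
    have e4 : c.t * κ (a, 1) = κ (1, a) * c.t := by rw [← h.sw a 1, mul_assoc, c.tt, mul_one]
    rw [mul_inv_rev, inv_inv, mul_assoc _ x, mul_assoc, ← mul_assoc (x * c.t), e3]
    simp only [mul_assoc, inv_mul_cancel_left]
    rw [e4, ← mul_assoc, ← map_mul]
    simp [← Prod.one_eq_mk]

theorem Pr.normS (h : Pr c κ) {S R : Subgroup G} (hS : IsPGroup 2 S) (le : κ.range ≤ S) (tS : c.t ∈ S)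
    (l1 : κ.range ≤ R) (l2 : R ≤ S ⊓ normalizer (κ.range : Set G)) {x : G}
    (hx : x ∈ normalizer (R : Set G)) : x ∈ normalizer (κ.range : Set G) := by
  refine H42.mem_normalizer_of_conj_mem fun y hy => h.kerl hS le tS ?_
  have m := l2 (H42.conj_mem_of_mem_normalizer hx (l1 hy))
  refine mem_R0.2 ⟨m.1, m.2, fun q a ha => ?_⟩
  obtain ⟨p, e⟩ := eq_M h.inj (jlemma h.inj (R := R)
    (fun r hr p => H42.conj_mem_of_mem_normalizer (l2 hr).2 ⟨p, rfl⟩)
    (fun r hr k => h.kerl hS le tS (mem_R0.2 ⟨(l2 hr).1, (l2 hr).2, k⟩))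
    (H42.cj_le_iff.2 fun b hb => H42.conj_mem_of_mem_normalizer (inv_mem hx) (l1 (map_le_range _ _ hb)))
    (sq_M x⁻¹ q) (card_M h.inj _ q).ge) (sq_M x⁻¹ q) (card_M h.inj _ q).ge
  obtain ⟨b, hb, e1⟩ := e ▸ H42.conj_mem_cj (g := x⁻¹) (mem_map_of_mem κ ha)
  obtain ⟨g, rfl⟩ := hy
  have := mem_map_of_mem κ (Vx_conj p g hb)
  rw [← e, H42.mem_cj, map_mul, map_mul, map_inv, e1] at this
  simpa [mul_assoc] using this

theorem Pr.exists_sy (h : Pr c κ) : ∃ S, Sy c κ S := by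
  have ti := Pr.tinv c
  have pY : IsPGroup 2 κ.range := (IsPGroup.of_card (n := 14) (by
    rw [Nat.card_prod, card_T]; rfl)).of_surjective _ κ.rangeRestrict_surjective
  obtain ⟨S, hS, le⟩ := H42.exists_sylIn (p := 2) (R := extT κ.range c.tt h.tY) (H := ⊤) (by
    rintro ⟨g, hg | hg⟩
    · obtain ⟨k, e⟩ := pY ⟨g, hg⟩
      exact ⟨k, Subtype.ext (congrArg (Subtype.val (p := (· ∈ κ.range))) e)⟩
    · obtain ⟨k, e⟩ := pY ⟨_, mul_mem hg (h.tY _ hg)⟩
      refine ⟨k + 1, Subtype.ext ?_⟩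
      have := congrArg Subtype.val e
      simp only [SubmonoidClass.mk_pow, mul_assoc, ← mul_assoc c.t c.t, c.tt, one_mul, mul_one] at this
      change g ^ 2 ^ (k + 1) = 1
      rw [pow_succ', pow_mul, pow_two]
      exact this) le_top
  have tS : c.t ∈ S := le (.inr (c.tt ▸ one_mem _))
  replace le : κ.range ≤ S := fun g hg => le (.inl hg)
  have nm : S ≤ normalizer (κ.range : Set G) := by
    by_contra hn
    obtain ⟨x, ⟨h1, h2⟩, h3⟩ := SetLike.exists_of_lt (H42.lt_inf_normalizer hS.isP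
      (lt_of_le_of_ne inf_le_left fun e => hn (inf_eq_left.1 e)))
    exact h3 ⟨h1, h.normS hS.isP le tS (le_inf le le_normalizer) le_rfl h2⟩
  have zz : z * z = 1 := by decide +kernel
  have cz : ∀ r ∈ normalizer (κ.range : Set G), Commute r (c.ι z) := fun r hr => by
    obtain ⟨θ, e⟩ := exists_aut h.inj hr
    exact mul_inv_eq_iff_eq_mul.1 (by rw [← h.diag, e, aut_zz])
  have e1 : κ (z, 1) = c.ι z * κ (1, z) := by rw [← h.diag, ← map_mul]; simp [zz]
  have e2 : κ (1, z) = c.ι z * κ (z, 1) := by rw [← h.diag, ← map_mul]; simp [zz]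
  have hz : ∀ r ∈ normalizer (κ.range : Set G), r * κ (z, 1) * r⁻¹ = κ (z, 1) ∨
      r * κ (z, 1) * r⁻¹ = κ (1, z) := fun r hr => by
    obtain ⟨θ, e⟩ := exists_aut h.inj hr
    exact (aut_z1 θ).imp (fun k => by rw [e, k]) fun k => by rw [e, k]
  have sylz : SylIn 2 (S ⊓ centralizer {κ (z, 1)}) (centralizer {κ (z, 1)}) := by
    obtain ⟨Q, hQ, lQ⟩ := H42.exists_sylIn (R := S ⊓ centralizer {κ (z, 1)}) hS.isP.to_inf_left inf_le_right
    rcases lQ.eq_or_lt with e | lt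
    · exact e ▸ hQ
    obtain ⟨x, ⟨h1, h2⟩, h3⟩ := SetLike.exists_of_lt (H42.lt_inf_normalizer hQ.isP lt)
    have xN := h.normS hS.isP le tS (le_inf le (by
      rintro _ ⟨g, rfl⟩
      rw [mem_centralizer_singleton_iff, ← map_mul, ← map_mul]
      exact congrArg κ (Prod.ext ((mem_center z).2 (.inr rfl) _) (by simp))))
      (le_inf inf_le_left (inf_le_left.trans nm)) h2
    obtain ⟨n, hn, k⟩ := (hS.of_le nm le_top).exists_conj (R := Q ⊓ normalizer (κ.range : Set G))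
      hQ.isP.to_inf_left inf_le_right
    have := card_le_of_le ((H42.cj_le_iff (g := n)).2 fun q hq => (mem_inf.2 ⟨k q hq, mem_centralizer_singleton_iff.2 (by
      have c1 := (show Commute q (κ (z, 1)) from mem_centralizer_singleton_iff.1 (hQ.le hq.1)).conj n
      rcases hz n hn with e | e <;> rw [e] at c1
      · exact c1
      · exact e1 ▸ (cz _ (nm (k q hq))).mul_right c1)⟩ : _ ∈ S ⊓ centralizer {κ (z, 1)}))
    rw [H42.card_cj] at this
    exact absurd (eq_of_le_of_card_ge (le_inf lQ (inf_le_left.trans nm)) this ▸ (⟨h1, xN⟩ :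
      x ∈ Q ⊓ normalizer (κ.range : Set G))) h3
  refine ⟨S, hS, le, tS, fun r hr p => H42.conj_mem_of_mem_normalizer (nm hr) ⟨p, rfl⟩,
    fun r hr β₁ β₂ ac f1 f2 => h.kerl hS.isP le tS (mem_R0.2 ⟨hr, nm hr, fun p a ha => ?_⟩),
    fun r hr => (hz r (nm hr)).imp mul_inv_eq_iff_eq_mul.1 fun e => mul_inv_eq_iff_eq_mul.1 ?_,
    fun r hr => cz r (nm hr), sylz, fun e => ?_⟩
  · have k : ∀ (b : Bool) {β : MulAut T}, Fx β → ∀ a ∈ (bif b then F else E),
        β a ∈ (bif b then F else E) := fun b _ f => by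
      cases b
      exacts [f.1, f.2]
    exact ⟨(β₁ a.1, β₂ a.2), ⟨k _ f1 _ ha.1, k _ f2 _ ha.2⟩, (ac a.1 a.2).symm⟩
  · rw [mul_inv_rev, ti, show r * c.t * κ (z, 1) * (c.t * r⁻¹) = r * (c.t * κ (z, 1) * c.t) * r⁻¹ by
      simp only [mul_assoc], h.sw, e2, ← conj_mul, e, (cz r (nm hr)).mul_inv_cancel, ← e1]
  · obtain ⟨g, e⟩ := isConj_iff.1 e
    obtain ⟨n, -, k⟩ := sylz.exists_conj (H42.isPGroup_cj g⁻¹ hS.isP) (H42.cj_le_iff.2 fun r hr =>
      mem_centralizer_singleton_iff.2 (by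
        have := (cz r (nm hr)).conj g⁻¹
        rw [← e] at this
        simpa [mul_assoc] using this.eq))
    have := card_le_of_le (H42.cj_le_iff.2 k)
    rw [H42.card_cj, H42.card_cj] at this
    have c1 : Commute c.t (κ (z, 1)) := mem_centralizer_singleton_iff.1
      (inf_eq_left.1 (eq_of_le_of_card_ge inf_le_left this) tS)
    have := h.sw z 1
    rw [c1.eq, mul_assoc, c.tt, mul_one] at this
    exact absurd (congrArg Prod.fst (h.inj this)) (show z ≠ 1 by decide +kernel)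

end Cfsg.Agent.WR
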