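import Cfsg.Agent.WR.Sym

/-! Project WR: types of the elements acting on both factors of `T × T`. -/

set_option autoImplicit false
set_option maxRecDepth 100000

namespace Cfsg.Agent.WR

open Subgroup Cfsg.Agent.H78
open Cfsg.Agent.H42 (SylIn cj)

variable {G : Type*} [Group G] {c : Cf G} {κ : T × T →* G} {S : Subgroup G}

/-- `β` interchanges `E` and `F` exactly if `i` -/
def Tp (i : Bool) (β : MulAut T) : Prop := bif i then Sw β else Fx β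

theorem Tp.mul {i j : Bool} {β γ : MulAut T} (h : Tp i β) (h' : Tp j γ) : Tp (xor i j) (β * γ) := by
  cases i <;> cases j
  exacts [Fx.mul h h', Fx.mul_sw h h', Sw.mul_fx h h', Sw.mul h h']

theorem Tp.inv {i : Bool} {β : MulAut T} (h : Tp i β) : Tp i β⁻¹ := by
  cases i
  exacts [Fx.inv h, Sw.inv h]

theorem Tp.uniq {i j : Bool} {β : MulAut T} (h : Tp i β) (h' : Tp j β) : i = j := by
  cases i <;> cases j
  exacts [rfl, (not_fx_sw h h').elim, (not_fx_sw h' h).elim, rfl]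

theorem tp_ex (β : MulAut T) : ∃ i, Tp i β :=
  (aut_cases β).elim (fun h => ⟨false, h⟩) fun h => ⟨true, h⟩

/-- the type of `r` -/
def Ty (κ : T × T →* G) (r : G) (i j : Bool) : Prop := ∃ β₁ β₂, Ac κ r β₁ β₂ ∧ Tp i β₁ ∧ Tp j β₂

theorem ty_z : z * z = 1 ∧ z ≠ 1 ∧ ∃ q : T, q * q = z := by decide +kernel

theorem ty_two {x : G} (h : x * x = 1) : IsPGroup 2 (zpowers x) := by
  rintro ⟨y, k, rfl⟩
  refine ⟨1, Subtype.ext ?_⟩
  change (x ^ k) ^ 2 ^ 1 = 1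
  rw [← zpow_natCast, ← zpow_mul, mul_comm, zpow_mul, zpow_natCast, pow_one, sq, h, one_zpow]

theorem ty_mul (κ : T × T →* G) (a b a' b' : T) : κ (a, b) * κ (a', b') = κ (a * a', b * b') :=
  (map_mul κ _ _).symm

variable [Finite G]

theorem Ty.mul {r s : G} {i j i' j' : Bool} (h : Ty κ r i j) (h' : Ty κ s i' j') :
    Ty κ (r * s) (xor i i') (xor j j') :=
  let ⟨_, _, a, b, d⟩ := h
  let ⟨_, _, a', b', d'⟩ := h'
  ⟨_, _, a.mul a', b.mul b', d.mul d'⟩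

theorem Ty.inv {r : G} {i j : Bool} (h : Ty κ r i j) : Ty κ r⁻¹ i j :=
  let ⟨_, _, a, b, d⟩ := h
  ⟨_, _, a.inv, b.inv, d.inv⟩

theorem Ty.t (h : Pr c κ) {r : G} {i j : Bool} (hr : Ty κ r i j) : Ty κ (c.t * r * c.t) j i :=
  let ⟨_, _, a, b, d⟩ := hr
  ⟨_, _, Ac.t h a, d, b⟩

theorem Ty.swap {r : G} {i j : Bool} (hr : Ty κ r i j) : Ty (flp κ) r j i :=
  let ⟨_, _, a, b, d⟩ := hr
  ⟨_, _, a.swap, d, b⟩

theorem Ty.uniq (h : Pr c κ) {r : G} {i j i' j' : Bool} (h1 : Ty κ r i j) (h2 : Ty κ r i' j') :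
    i = i' ∧ j = j' := by
  obtain ⟨_, _, a, b, d⟩ := h1
  obtain ⟨_, _, a', b', d'⟩ := h2
  obtain ⟨rfl, rfl⟩ := Ac.unique h a a'
  exact ⟨b.uniq b', d.uniq d'⟩

theorem ty_range {r : G} (hr : r ∈ κ.range) : Ty κ r false false := by
  obtain ⟨⟨a, b⟩, rfl⟩ := hr
  exact ⟨_, _, ac_κ a b, fx_conj a, fx_conj b⟩

omit [Finite G] in
theorem Sy.ty (hS : Sy c κ S) (hF : Fu c κ) {r : G} (hr : r ∈ S) (hz : Commute r (κ (z, 1))) :
    ∃ i j, Ty κ r i j :=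
  let ⟨β₁, β₂, a⟩ := hF.act r (hS.norm r hr) hz
  let ⟨i, b⟩ := tp_ex β₁
  let ⟨j, d⟩ := tp_ex β₂
  ⟨i, j, β₁, β₂, a, b, d⟩

omit [Finite G] in
theorem Sy.ty_ker (hS : Sy c κ S) {r : G} (hr : r ∈ S) (h : Ty κ r false false) : r ∈ κ.range :=
  let ⟨_, _, a, b, d⟩ := h
  hS.ker r hr _ _ a b d

omit [Finite G] in
theorem Ty.comm {r : G} {i j : Bool} (h : Ty κ r i j) : Commute r (κ (z, 1)) := by
  obtain ⟨β₁, β₂, a, -⟩ := h
  have := a z 1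
  rw [aut_z, map_one] at this
  exact mul_inv_eq_iff_eq_mul.1 this

theorem Ac.sq (h : Pr c κ) {r : G} {β₁ β₂ : MulAut T} (a : Ac κ r β₁ β₂) (r2 : r * r = 1) :
    β₁ * β₁ = 1 ∧ β₂ * β₂ = 1 :=
  Ac.unique h (a.mul a) fun a b => by rw [r2]; simp

omit [Finite G] in
theorem Sy.mul_out (hS : Sy c κ S) {x y : G} (hx : x ∈ S) (hy : y ∈ S) (h1 : ¬ Commute x (κ (z, 1)))
    (h2 : ¬ Commute y (κ (z, 1))) : Commute (x * y) (κ (z, 1)) := by
  have := ((hS.half x hx).resolve_left h1).mul_left (((hS.half _ (S.inv_mem hy)).resolve_left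
    fun h => h2 (by simpa using h.inv_left)).inv_left)
  simpa using this

omit [Finite G] in
theorem Pr.t_out (h : Pr c κ) : ¬ Commute c.t (κ (z, 1)) := fun e => by
  have := h.sw z 1
  rw [e.eq, mul_assoc, c.tt, mul_one] at this
  exact ty_z.2.1 (congrArg Prod.fst (h.inj this))

omit [Finite G] in
theorem Pr.ι_range (h : Pr c κ) (x : T) : c.ι x ∈ κ.range := ⟨_, h.diag x⟩

/-- elements of `S ⊓ H` -/
theorem Sy.mem_H (h : Pr c κ) (hS : Sy c κ S) {u : G} (hu : u ∈ S) (hH : u ∈ c.H) :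
    ∃ x, u = c.ι x ∨ u = c.t * c.ι x :=
  c.maxS (Q := S ⊓ c.H) (hS.syl.isP.to_le inf_le_left) inf_le_right ⟨hS.tS, c.tH⟩
    (fun x => ⟨hS.le (h.ι_range x), c.LH (c.toGF.ι_mem x)⟩) ⟨hu, hH⟩

end Cfsg.Agent.WR
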